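import Cfsg.Agent.H29.AM1
import Cfsg.Agent.H15.MX2
import Cfsg.Agent.H15.MX4
import Cfsg.Agent.H15.MX5
import Cfsg.Agent.H2.MX3

/-! S5586: common neighbours of a symplectic pair (piece SY). -/

set_option autoImplicit false

namespace H29.AM
open Cfsg H15 H19 H0 H0.Mo H0.Y H15.ML Subgroup Function
open H14.Mn (Mon zM)
open H7.AM (mgM SY)
open scoped commutatorElement

theorem sy : SY := fun a b w w' ab wa wb wa' wb' => by
  have h := mgM
  have ca := wa.2.1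
  have cb := wb.2.1
  have a2 := MX.sq h ca
  have b2 := MX.sq h cb
  have cm : b * a = a * b := by
    rw [← ab.inv, mul_inv_rev, inv_eq_of_mul_eq_one_right a2, inv_eq_of_mul_eq_one_right b2]
  have nc : ¬ IsConj b (b * a) := fun c => ab.2.2 (cm ▸ cb.trans c)
  have nq : b ∉ Qo a := fun m => nc (MX.conj_mul' h ca m (MX.ne1 h cb) fun e => ab.2.1 (by rw [e, a2]))
  obtain ⟨s, f, R, L, -, M, r⟩ := h.ex
  obtain ⟨e, T⟩ := ten M L r
  obtain ⟨g, aE, bE⟩ := (MX.kd' _ _ s f R e T h a b ca (mem_cent1.2 cm) nq b2).resolve_right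
    fun ⟨_, _, _, _, _, _, _, k⟩ => nc k
  have A := MX.ar _ _ s f R e T h g
  generalize cj g T.E = E at A aE bE
  have l := H2.MX.la _ _ E h A
  have c := H2.MX.lc _ _ E h A l
  have bE' : b ∈ E := by
    by_contra n
    have hw := A.e3 a aE ca b bE nq b2
    obtain ⟨k, -, -, e⟩ := c.nd a aE ca 1 (one_mem _) b ⟨bE, hw⟩ (by simpa using n)
    exact nc (isConj_iff.2 ⟨k, by rw [cm, ← e, commutatorElement_def]; group⟩)
  have wE := c.e6' a aE b bE' ca cb nq ⟨(nsymm wa).2.2.1, (nsymm wb).2.2.1⟩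
  have wE' := c.e6' a aE b bE' ca cb nq ⟨(nsymm wa').2.2.1, (nsymm wb').2.2.1⟩
  refine or_iff_not_imp_left.2 fun n => or_iff_not_imp_left.2 fun n' => ?_
  have nw : w' ∉ Qo w := fun m => n' ⟨wa.1, wa'.1, m, Ne.symm n⟩
  have k1 := l.half a aE ca E le_sup_right
  have k2 := l.half b bE' cb (E ⊓ Qo a) (le_sup_of_le_right inf_le_left)
  have k3 := l.half w wE wa.1 (E ⊓ Qo a ⊓ Qo b) (le_sup_of_le_right (inf_le_left.trans inf_le_left))
  have k4 := l.half w' wE' wa'.1 (E ⊓ Qo a ⊓ Qo b ⊓ Qo w)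
    (le_sup_of_le_right ((inf_le_left.trans inf_le_left).trans inf_le_left))
  have k0 := l.card
  obtain ⟨v, hv, v1, nv⟩ : ∃ v ∈ E ⊓ Qo a ⊓ Qo b ⊓ Qo w ⊓ Qo w', v ≠ 1 ∧ ¬ A2 zM v := by
    by_contra! p
    have := (MX.ta _ _ h).le w' wa'.1 _ inf_le_right p
    omega
  have cv : IsConj zM v := by_contra fun k => nv ⟨l.ab v hv.1.1.1.1, v1, k⟩
  exact ⟨v, ⟨cv, ca, MX.symm h ca cv hv.1.1.1.2, fun e => nq (MX.symm h cb ca (e ▸ hv.1.1.2))⟩,
    ⟨cv, cb, MX.symm h cb cv hv.1.1.2, fun e => nq (e ▸ hv.1.1.1.2)⟩,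
    ⟨cv, wa.1, MX.symm h wa.1 cv hv.1.2, fun e => nw (MX.symm h wa'.1 wa.1 (e ▸ hv.2))⟩,
    ⟨cv, wa'.1, MX.symm h wa'.1 cv hv.2, fun e => nw (e ▸ hv.1.2)⟩⟩

end H29.AM
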