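import Cfsg.Agent.H7.AM0

/-! S5586: coverings of the collinearity graph of the Monster (pieces CV, SK, FN of `H7.AM0`). -/

set_option autoImplicit false

namespace H29.AM
open Cfsg H15 H19 H0 H0.Mo H0.Y H7.AM Subgroup Function
open H14.Mn (Mon zM)

universe u

section
variable {w y a b : Mon}

theorem nlp (h : Nb w y) : LP (Qo w) w (Qo y) y :=
  (mgM.conj h.1).lp h.2.2.1 (h.1.symm.trans h.2.1) h.2.2.2

theorem nsymm (h : Nb w y) : Nb y w := ⟨h.2.1, h.1, (nlp h).zQ, h.2.2.2.symm⟩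

theorem cjz (h : IsConj zM w) (g : Mon) : IsConj zM (g * w * g⁻¹) := h.trans (isConj_iff.2 ⟨g, rfl⟩)

theorem ncj (h : Nb w y) (g : Mon) : Nb (g * w * g⁻¹) (g * y * g⁻¹) :=
  ⟨cjz h.1 g, cjz h.2.1 g, Qo_conj h.2.2.1 g, by simpa using h.2.2.2⟩

theorem ntrans (ha : Nb w a) (hb : Nb w b) : ∃ h ∈ C[w], h * a * h⁻¹ = b := by
  obtain ⟨f, R, M⟩ := (mgM.conj ha.1).1
  obtain ⟨g, r⟩ := M.typ4 (nlp ha)
  obtain ⟨g', r'⟩ := M.typ4 (nlp hb)
  exact M.conj_type r r' (nz_of (norm_e8 _) (by norm_num))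

theorem cfix {g x : Mon} (h : g ∈ C[x]) : g * x * g⁻¹ = x := by
  rw [mem_cent1.1 h, mul_inv_cancel_right]

theorem of_fix {g x : Mon} (h : g * x * g⁻¹ = x) : g ∈ C[x] := mem_cent1.2 (mul_inv_eq_iff_eq_mul.1 h)

end

theorem cv (tt : TT) (ge : GE) : CV.{u} := by
  intro Γ _ φ Ct t s h
  have zs : Nb zM s := ⟨.refl _, h.sc, h.sQ, h.sn⟩
  have cz : ∀ c ∈ Ct, φ c ∈ C[zM] := fun c hc => h.map ▸ mem_map_of_mem φ hc
  have lz : ∀ g ∈ C[zM], ∃ c ∈ Ct, φ c = g := fun g hg => mem_map.1 (h.map ▸ hg)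
  let o : Γ ⧸ Ct := QuotientGroup.mk 1
  have ho : ∀ γ : Γ, γ • o = QuotientGroup.mk γ := fun γ => congrArg QuotientGroup.mk (mul_one γ)
  have st : ∀ γ δ : Γ, γ • o = δ • o ↔ γ⁻¹ * δ ∈ Ct := fun γ δ => by rw [ho, ho, QuotientGroup.eq]
  have so : ∀ c ∈ Ct, c • o = o := fun c hc => by
    conv_rhs => rw [← one_smul Γ o]
    rw [st]; simpa using hc
  have tr : ∀ p : Γ ⧸ Ct, ∃ γ : Γ, p = γ • o := fun p => by
    obtain ⟨γ, rfl⟩ := QuotientGroup.mk_surjective p; exact ⟨γ, (ho γ).symm⟩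
  let pr : Γ ⧸ Ct → Mon := Quotient.lift (fun γ => φ γ * zM * (φ γ)⁻¹) fun γ δ e => by
    have := cfix (cz _ (QuotientGroup.leftRel_apply.1 e))
    rw [map_mul, map_inv] at this
    conv_lhs => rw [← this]
    group
  have hp : ∀ γ : Γ, pr (γ • o) = φ γ * zM * (φ γ)⁻¹ := fun γ => by rw [ho]; rfl
  have eqv : ∀ (γ : Γ) p, pr (γ • p) = φ γ * pr p * (φ γ)⁻¹ := fun γ p => by
    obtain ⟨δ, rfl⟩ := tr p
    rw [← mul_smul, hp, hp, map_mul]; group
  have po : pr o = zM := by simpa using hp 1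
  have pt : pr (t • o) = s := (hp t).trans h.tz
  have sur : Surjective φ := by
    rw [← MonoidHom.range_eq_top, eq_top_iff, ← ge s zs, sup_le_iff]
    refine ⟨fun g hg => let ⟨c, _, e⟩ := lz g hg; ⟨c, e⟩, fun g hg => ?_⟩
    rw [← h.tz, ← cj_cent1, mem_cj] at hg
    obtain ⟨c, -, e⟩ := lz _ hg
    exact ⟨t * c * t⁻¹, by rw [map_mul, map_mul, map_inv, e]; group⟩
  have ft : ∀ c ∈ Ct, φ c ∈ C[s] → c • t • o = t • o := fun c hc hs => by
    rw [← mul_smul, eq_comm, st]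
    have := mul_mem (mul_mem (inv_mem h.tt) (h.nK c hc hs)) h.tt
    convert this using 1; group
  let ad : Γ ⧸ Ct → Γ ⧸ Ct → Prop := fun p q => ∃ γ : Γ, p = γ • o ∧ q = γ • t • o
  have sm : ∀ (γ : Γ) {p q}, ad p q → ad (γ • p) (γ • q) := by
    rintro γ _ _ ⟨δ, rfl, rfl⟩; exact ⟨γ * δ, (mul_smul _ _ _).symm, (mul_smul _ _ _).symm⟩
  have sy : ∀ {p q}, ad p q → ad q p := by
    rintro _ _ ⟨δ, rfl, rfl⟩
    exact ⟨δ * t, (mul_smul _ _ _).symm, by rw [mul_smul, ← mul_smul t, so _ h.tt]⟩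
  have nb : ∀ {p q}, ad p q → Nb (pr p) (pr q) := by
    rintro _ _ ⟨δ, rfl, rfl⟩
    rw [eqv, eqv δ, po, pt]; exact ncj zs _
  have ao : ∀ {q}, ad o q → ∃ c ∈ Ct, q = c • t • o := by
    rintro _ ⟨δ, e, rfl⟩
    exact ⟨δ, by simpa using (st 1 δ).1 (by rwa [one_smul]), rfl⟩
  have oa : ∀ c ∈ Ct, ad o (c • t • o) := fun c hc => ⟨c, (so c hc).symm, rfl⟩
  have un : ∀ {p q q'}, ad p q → ad p q' → pr q = pr q' → q = q' := by
    rintro _ _ q' ⟨δ, rfl, rfl⟩ a e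
    have a' := sm δ⁻¹ a
    rw [inv_smul_smul] at a'
    obtain ⟨c, hc, k⟩ := ao a'
    obtain rfl : q' = δ • c • t • o := by rw [← k, smul_inv_smul]
    rw [eqv, eqv δ, eqv c, pt] at e
    rw [ft c hc (of_fix (by simpa using e.symm))]
  refine ⟨Γ ⧸ Ct, inferInstance, pr, ad, ⟨fun p => ?_, eqv, fun p g hg => ?_, fun γ p e k => ?_, fun y hy => ?_⟩,
    sm, sy, nb, fun p y hy => ?_, un, ?_, fun p q => ?_⟩
  · obtain ⟨δ, rfl⟩ := tr p
    rw [hp]; exact cjz (.refl _) _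
  · obtain ⟨δ, rfl⟩ := tr p
    rw [hp, ← cj_cent1, mem_cj] at hg
    obtain ⟨c, hc, e⟩ := lz _ hg
    exact ⟨δ * c * δ⁻¹, by rw [map_mul, map_mul, map_inv, e]; group, by
      rw [mul_smul, inv_smul_smul, mul_smul, so c hc]⟩
  · obtain ⟨δ, rfl⟩ := tr p
    rw [← mul_smul, eq_comm, st] at e
    have := h.inj _ e (by simp [k])
    simpa [inv_mul_eq_one] using this
  · obtain ⟨g, rfl⟩ := isConj_iff.1 hy
    obtain ⟨δ, rfl⟩ := sur g
    exact ⟨_, hp δ⟩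
  · obtain ⟨δ, rfl⟩ := tr p
    have := ncj hy (φ δ)⁻¹
    rw [hp, show (φ δ)⁻¹ * (φ δ * zM * (φ δ)⁻¹) * (φ δ)⁻¹⁻¹ = zM by group] at this
    obtain ⟨g, hg, e⟩ := ntrans zs this
    obtain ⟨c, hc, rfl⟩ := lz g hg
    exact ⟨δ • c • t • o, sm δ (oa c hc), by rw [eqv, eqv c, pt, e]; group⟩
  · have key : ∀ c ∈ Ct, (∃ c₁ ∈ Ct, ∃ c₂ ∈ Ct, t⁻¹ * c * t = c₁ * t * c₂) → ∀ k ∈ C[zM] ⊓ C[s], ∀ r, ad o r →
        k * (φ c * s * (φ c)⁻¹) * k⁻¹ = pr r → ad (t • o) r := by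
      rintro c hc ⟨c₁, h₁, c₂, h₂, e⟩ k hk r a er
      obtain ⟨κ, hκ, rfl⟩ := lz k hk.1
      have a1 : ad (t • o) (c • t • o) := by
        have := sm t (oa c₁ h₁)
        have k : t • c₁ • t • o = c • t • o := by
          rw [← mul_smul, ← mul_smul, ← mul_smul, st]
          convert h₂ using 1
          rw [← mul_left_cancel_iff (a := c₁ * t), ← e]; group
        rwa [k] at this
      have a2 := sm κ a1
      have a3 := sm κ (oa c hc)
      rw [ft κ hκ hk.2] at a2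
      rw [so κ hκ] at a3
      rwa [un a3 a (by rw [eqv, eqv c, pt, er])] at a2
    rintro _ _ r ⟨δ, rfl, rfl⟩ a n
    have a' := sm δ⁻¹ a
    rw [inv_smul_smul] at a'
    obtain ⟨r, rfl⟩ : ∃ r', r = δ • r' := ⟨δ⁻¹ • r, (smul_inv_smul _ _).symm⟩
    rw [inv_smul_smul] at a'
    have n' := ncj n (φ δ)⁻¹
    rw [eqv, eqv δ, pt, show ∀ x, (φ δ)⁻¹ * (φ δ * x * (φ δ)⁻¹) * (φ δ)⁻¹⁻¹ = x from fun x => by group,
      show ∀ x, (φ δ)⁻¹ * (φ δ * x * (φ δ)⁻¹) * (φ δ)⁻¹⁻¹ = x from fun x => by group] at n'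
    refine sm δ ?_
    by_cases e : pr r = s * zM
    · obtain ⟨c, hc, e1, e2⟩ := h.line
      exact key c hc e2 1 (one_mem _) r a' (by rw [e1, e]; simp)
    · obtain ⟨c, hc, e1, e2, e3⟩ := h.plane
      have z1 := ncj zs (φ c)
      rw [cfix (cz c hc)] at z1
      obtain ⟨k, hk, e4⟩ := tt s _ _ zs z1 ⟨h.sc, z1.2.1, e1, fun e => e2 (.inr (.inr (.inl e)))⟩ (po ▸ nb a') n'
        (fun e => e2 (.inr (.inr (.inr e)))) e
      exact key c hc e3 k hk r a' e4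
  · have S : ∀ (γ : Γ) {p q}, Relation.ReflTransGen ad p q → Relation.ReflTransGen ad (γ • p) (γ • q) :=
      fun γ _ _ a => a.lift (γ • ·) fun _ _ => sm γ
    have Y : ∀ {p q}, Relation.ReflTransGen ad p q → Relation.ReflTransGen ad q p := fun a => by
      induction a with
      | refl => exact .refl
      | tail _ b ih => exact .head (sy b) ih
    have K : ∀ γ : Γ, Relation.ReflTransGen ad o (γ • o) := fun γ => by
      have : γ ∈ closure (insert t (Ct : Set Γ)) := h.gen ▸ mem_top γ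
      induction this using closure_induction with
      | mem x hx =>
        rcases hx with rfl | hx
        · exact .single ⟨1, by simp, by simp⟩
        · rw [so x hx]
      | one => rw [one_smul]
      | mul x y _ _ hx hy => rw [mul_smul]; exact hx.trans (S x hy)
      | inv x _ hx => have := S x⁻¹ hx; rw [inv_smul_smul] at this; exact Y this
    obtain ⟨γ, rfl⟩ := tr p
    obtain ⟨δ, rfl⟩ := tr q
    exact (Y (K γ)).trans (K δ)

theorem sk (sy : SY) : SK.{u} := by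
  intro Γ _ φ P _ pr ad h
  have un : ∀ {p q q'}, Sp pr ad p q → Sp pr ad p q' → pr q = pr q' → q = q' := by
    rintro p q q' ⟨a, w, wp, wq⟩ ⟨-, w', wp', wq'⟩ e
    rcases sy _ _ _ _ a (h.nb wp) (h.nb wq) (h.nb wp') (e ▸ h.nb wq') with k | k | ⟨v, va, vb, vw, vw'⟩
    · obtain rfl := h.uniq (h.symm wp) (h.symm wp') k
      exact h.uniq wq wq' e
    · exact h.uniq (h.tri (h.tri (h.symm wp) (h.symm wp') k) wq (e ▸ h.nb wq')) wq' e
    · obtain ⟨v, pv, rfl⟩ := h.ex p v (nsymm va)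
      exact h.uniq (h.tri (h.symm (h.tri pv (h.symm wp) vw)) wq vb)
        (h.tri (h.symm (h.tri pv (h.symm wp') vw')) wq' (e ▸ vb)) e
  have ex : ∀ p y w, A2 zM (pr p * y) → ad w p → Nb (pr w) y → ∃ q, Sp pr ad p q ∧ ad w q ∧ pr q = y :=
    fun p y w a wp n => by
      obtain ⟨q, wq, rfl⟩ := h.ex w y n
      exact ⟨q, ⟨a, w, wp, wq⟩, wq, rfl⟩
  refine ⟨h.toPt, ?_, ?_, fun p y w a n m => ?_, un, fun {p q r} w a b c n1 n2 n3 => ?_⟩
  · rintro γ p q ⟨a, w, wp, wq⟩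
    refine ⟨?_, γ • w, h.smul γ wp, h.smul γ wq⟩
    rw [h.eqv, h.eqv, conj_mul]; exact a.cj _
  · rintro p q ⟨a, w, wp, wq⟩
    refine ⟨?_, w, wq, wp⟩
    have := a.cj (pr p)⁻¹
    rwa [show (pr p)⁻¹ * (pr p * pr q) * (pr p)⁻¹⁻¹ = pr q * pr p by group] at this
  · obtain ⟨w, pw, rfl⟩ := h.ex p w (nsymm n)
    obtain ⟨q, k, -, e⟩ := ex p y w a (h.symm pw) m
    exact ⟨q, k, e⟩
  · obtain ⟨w, pw, rfl⟩ := h.ex p w (nsymm n1)
    obtain ⟨q', k, wq, e⟩ := ex p _ w a.1 (h.symm pw) n2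
    obtain ⟨r', k', wr, e'⟩ := ex p _ w b.1 (h.symm pw) n3
    obtain rfl := un k a e
    obtain rfl := un k' b e'
    exact ⟨c, w, wq, wr⟩

theorem fn : FN.{u} := by
  rintro Γ _ φ P _ pr ad ψ p q h hψ ⟨a, w, wp, wq⟩ fp fq
  have np := h.nb wp
  have nq := h.nb wq
  have E := (nlp np).l.es
  have Ep := (nlp np).r.es
  have Eq := (nlp nq).r.es
  obtain ⟨e, he, k⟩ : ∃ e ∈ Qo (pr w) ⊓ C[pr q], e * pr p * e⁻¹ = pr p * pr w := by
    by_contra! n
    have : pr p ∈ zpowers (pr w) ⊔ zpowers (pr q) := by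
      rw [← E.cent_four nq.2.2.1]
      refine ⟨np.2.2.1, mem_cent.2 fun e he => ?_⟩
      exact (mul_inv_eq_iff_eq_mul.1 ((E.conj_cases he.1 np.2.2.1).resolve_right (n e he)))
    rw [mem_four E.zz Eq.zz (nlp nq).comm] at this
    rcases this with k | k | k | k
    · exact Ep.z1 k
    · exact np.2.2.2 k
    · exact a.2.1 (by rw [k, Eq.zz])
    · exact a.2.2 (by rw [k, mul_assoc, Eq.zz, mul_one]; exact np.1)
  have eq : ∀ m x, pr (ψ m • x) = m * pr x * m⁻¹ := fun m x => by rw [h.eqv, hψ]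
  have f1 : ψ e • w = w := by
    have := h.smul (ψ e) wq
    rw [fq e he.2] at this
    exact h.uniq (h.symm this) (h.symm wq) (by rw [eq, cfix (E.le_cent he.1)])
  have a1 : ad p (ψ e • p) := by
    have := h.smul (ψ e) wp
    rw [f1] at this
    refine h.tri wp this ⟨np.2.1, h.conj _, ?_, ?_⟩ <;> rw [eq, k]
    · exact mul_mem Ep.zQ (nlp np).zQ
    · simpa using E.z1
  have cl : ∀ r, ∃ m, r = ψ m • p := fun r => by
    induction h.conn p r with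
    | refl => exact ⟨1, by simp⟩
    | tail _ b ih =>
      obtain ⟨m, rfl⟩ := ih
      have b' := h.smul (ψ m)⁻¹ b
      rw [inv_smul_smul] at b'
      obtain ⟨g, hg, e1⟩ := ntrans (h.nb a1) (h.nb b')
      have a2 := h.smul (ψ g) a1
      rw [fp g hg] at a2
      have := h.uniq a2 b' (by rw [eq, e1])
      exact ⟨m * (g * e), by rw [map_mul, map_mul, mul_smul, mul_smul, this, smul_inv_smul]⟩
  refine (injective_iff_map_eq_one φ).2 fun γ hγ => h.inj γ p ?_ hγ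
  obtain ⟨m, hm⟩ := cl (γ • p)
  have := congrArg pr hm
  rw [eq, h.eqv, hγ] at this
  rw [hm, fp m (of_fix (by simpa using this.symm))]

end H29.AM
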