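import Cfsg.Agent.H29.AM1
import Cfsg.Agent.H3.AM1

/-! S5586: triangles in the collinearity graph (piece TT) and automorphisms of `C(z, s)` (piece EX). -/

set_option autoImplicit false
set_option linter.unusedSectionVars false

namespace H29.AM
open Cfsg H15 H19 H0 H0.Mo H0.Y H7.AM H3.AM Subgroup Function Finset
open H14.Mn (Mon zM)
open scoped commutatorElement Pointwise

universe u

/-- a frame vector with all coordinates divisible by four -/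
theorem tet {u : Lam} (n : sqNorm (cf u) = 64) (h : ∃ w, Cg u w ∧ ∀ i, 4 ∣ cf w i) (e : ¬ Cg u lE) :
    (∀ i, 4 ∣ cf u i) ∧ (univ.filter fun i => ¬ 8 ∣ cf u i).card = 4 := by
  obtain ⟨w, ⟨l, c⟩, hw⟩ := h
  have c' : ∀ i, cf u i - cf w i = 2 * cf l i := fun i => by
    rw [← cf_sub, c, two_smul, cf_add]; ring
  have h4 : ∀ i, 4 ∣ cf u i := by
    by_contra! k
    obtain ⟨j, k⟩ := k
    have : ∑ _i : GolayPt, (4 : ℤ) ≤ sqNorm (cf u) := sum_le_sum fun i _ => by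
      have a := c' i; have b := c' j; have := hw i; have := hw j
      have : ¬ 2 ∣ cf l i := fun p => by have := par p j; omega
      have : 2 ≤ cf u i ∨ cf u i ≤ -2 := by omega
      rcases this with p | p <;> nlinarith
    rw [sum_pt] at this; omega
  refine ⟨h4, ?_⟩
  set T := univ.filter fun i => ¬ 8 ∣ cf u i with hT
  have k : ∀ i, 64 ∣ cf u i ^ 2 - (if i ∈ T then 16 else 0) ∧ (if i ∈ T then 16 else 0) ≤ cf u i ^ 2 := fun i => by
    obtain ⟨m, hm⟩ := h4 i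
    by_cases p : i ∈ T
    · have q := (mem_filter.1 p).2
      obtain ⟨r, rfl⟩ : ∃ r, m = 2 * r + 1 := ⟨m / 2, by omega⟩
      rw [if_pos p, hm]
      exact ⟨⟨r * r + r, by ring⟩, by rcases le_or_gt 0 r with t | t <;> nlinarith⟩
    · have q : 8 ∣ cf u i := by simpa [hT] using p
      obtain ⟨r, hr⟩ := q
      rw [if_neg p, hr]
      exact ⟨⟨r * r, by ring⟩, sq_nonneg _⟩
  have a := dvd_sum_sub univ _ _ _ fun i _ => (k i).1
  have b : (∑ i, if i ∈ T then (16 : ℤ) else 0) ≤ sqNorm (cf u) := sum_le_sum fun i _ => (k i).2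
  rw [sum_ind] at a b
  change 64 ∣ sqNorm (cf u) - _ at a
  have : T.card ≠ 0 := fun z => by
    rw [card_eq_zero, filter_eq_empty_iff] at z
    rcases cg8 fun i => not_not.1 (z (mem_univ i)) with c | c
    exacts [nz_of n (by norm_num) c, e c]
  omega

theorem tet2 {u u' : Lam} (n : sqNorm (cf u) = 64) (h : ∃ w, Cg u w ∧ ∀ i, 4 ∣ cf w i) (e : ¬ Cg u lE)
    (n' : sqNorm (cf u') = 64) (h' : ∃ w, Cg u' w ∧ ∀ i, 4 ∣ cf w i) (e' : ¬ Cg u' lE) :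
    ∃ g ∈ NN, Cg (g • u) u' ∨ Cg (g • u) (u' + lE) := by
  obtain ⟨a, b⟩ := tet n h e
  obtain ⟨a', b'⟩ := tet n' h' e'
  obtain ⟨σ, hσ, k⟩ := m24_trans_sets (b.le.trans (by norm_num)) (b.trans b'.symm)
  refine ⟨_, prmH_mem ⟨σ, hσ⟩, (cg8 (u := prm hσ • u - u') fun i => ?_).imp Cg.sub_zero.1 fun c => ?_⟩
  · have := inv_apply_mem_iff σ (univ.filter fun i => ¬ 8 ∣ cf u i) i
    rw [k] at this
    simp only [mem_filter, mem_univ, true_and] at this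
    have := a (σ⁻¹ i); have := a' i
    rw [cf_sub, cf_prm']; omega
  · have := c.add (Cg.refl u')
    rwa [sub_add_cancel, add_comm] at this

section
variable {G : Type u} [Group G] [Finite G] {Q Q' : Subgroup G} {z s x : G}

theorem mv (E : ES Q z) (hs : s ∈ Q) (s2 : s * s = 1) (hx : x ∈ Q) (n : ¬ V4 z s x) :
    ∃ e ∈ Q ⊓ C[s], e * x * e⁻¹ = x * z := by
  by_contra! k
  have : x ∈ zpowers z ⊔ zpowers s := by
    rw [← E.cent_four hs]
    exact ⟨hx, mem_cent.2 fun e he => mul_inv_eq_iff_eq_mul.1 ((E.conj_cases he.1 hx).resolve_right (k e he))⟩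
  rw [mem_four E.zz s2 (E.cent s hs).symm, ← E.cent s hs] at this
  exact n this

omit [Finite G] in
theorem V4s (c : s * z = z * s) (h : V4 s z x) : V4 z s x := by
  rcases h with h | h | h | h
  exacts [.inl h, .inr (.inr (.inl h)), .inr (.inl h), .inr (.inr (.inr (h.trans c.symm)))]

/-- the centralizer of `C_Q(s)` -/
theorem cenP (L : LP Q z Q' s) (hx : x ∈ C[z]) (h : x ∈ C(Q ⊓ C[s])) : V4 z s x := by
  have : x ∈ zpowers z ⊔ zpowers s := L.l.es.cent_four L.tQ ▸ ⟨L.l.mem_of_cent hx L.tQ L.r.es.zz fun y hy => by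
    rw [comm_eq_one.2 (mem_cent.1 h y hy).symm]; exact one_mem _, h⟩
  rwa [mem_four L.l.es.zz L.r.es.zz L.comm, L.comm] at this

variable {f : C[z] →* Spor.Co1} {R : G → Lam → Prop} (M : MT Q z f R) (L : LP Q z Q' s) (r : R s lE)
include M L r

theorem clsE : ∀ v, v ∈ cls M (Q ⊓ Q') ↔ ∃ w, Cg v w ∧ ∀ i, 4 ∣ cf w i := by
  rcases un _ (cls2 M (Q ⊓ Q')) (clsN M (img_s M r).ge L.cent_norm_E) with h | h | h
  · obtain ⟨t, ht, g, a⟩ := M.exists_typ2 L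
    have n : sqNorm (cf (g • lU)) = 32 := by rw [co_norm, norm_U]
    rcases h _ ⟨t, ht, a⟩ with c | c
    · exact absurd c (nz_of n (by norm_num))
    · have e := norm_e8 (pt 23)
      rcases c.symm.short e.le (by omega) with k | k <;> rw [show e8 (pt 23) 1 = _ from k] at e
      · omega
      · rw [show cf (-(g • lU)) = -cf (g • lU) from rfl, sqNorm_neg] at e; omega
  · exact h
  · obtain ⟨p, hp, q, hq, e⟩ := z_comm M h r
    rcases L.r.es.comm p hp.1.1.2 q hq.1.1.2 with k | k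
    · exact absurd (e.symm.trans k) L.l.es.z1
    · exact absurd (k.symm.trans e) L.ne

theorem d4_iff : D4 R x ↔ x ∈ Q ⊓ Q' := by
  refine ⟨fun ⟨v, a, h⟩ => ?_, fun hx => ?_⟩
  · obtain ⟨y, hy, b⟩ := (clsE M L r v).2 ⟨v, .refl v, h⟩
    rcases (M.uniq b a).1 (.refl v) with e | e <;> rw [e]
    exacts [hy, mul_mem hy ⟨L.l.es.zQ, L.zQ⟩]
  · obtain ⟨v, a⟩ := M.tot x hx.1
    obtain ⟨w, c, h⟩ := (clsE M L r v).1 ⟨x, hx, a⟩
    exact ⟨w, M.cg a c, h⟩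

theorem tri_tr {a b : G} (ha : a ∈ Q ⊓ Q') (ca : IsConj z a) (na : ¬ V4 z s a) (hb : b ∈ Q ⊓ Q') (cb : IsConj z b)
    (nb : ¬ V4 z s b) : ∃ k ∈ C[z] ⊓ C[s], k * a * k⁻¹ = b := by
  have key : ∀ a ∈ Q ⊓ Q', IsConj z a → ¬ V4 z s a → ∃ u, R a u ∧ sqNorm (cf u) = 64 ∧
      (∃ w, Cg u w ∧ ∀ i, 4 ∣ cf w i) ∧ ¬ Cg u lE := fun a ha ca na => by
    obtain ⟨g, t⟩ := (M.conj_iff L ha.1).1 ⟨ca, fun e => na (.inr (.inl e))⟩
    exact ⟨_, t, by rw [co_norm, norm_e8], (clsE M L r _).1 ⟨a, ha, t⟩, fun c =>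
      na (.inr (.inr ((M.uniq r t).1 c.symm)))⟩
  obtain ⟨u, t, n, h, e⟩ := key a ha ca na
  obtain ⟨u', t', n', h', e'⟩ := key b hb cb nb
  obtain ⟨g, hg, c⟩ := tet2 n h e n' h' e'
  obtain ⟨k, hk, ak⟩ := mem_img.1 ((img_s M r).ge hg)
  obtain ⟨e1, m1, k1⟩ := mv L.l.es L.tQ L.r.es.zz hb.1 nb
  obtain ⟨e2, m2, k2⟩ := mv L.r.es L.zQ L.l.es.zz hb.2 fun h => nb (V4s L.comm.symm h)
  have n1 : e1 ∈ C[z] ⊓ C[s] := ⟨L.l.es.le_cent m1.1, m1.2⟩
  have n2 : e2 ∈ C[z] ⊓ C[s] := ⟨m2.2, L.r.es.le_cent m2.1⟩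
  have fin : ∀ e ∈ C[z] ⊓ C[s], k * a * k⁻¹ = e * b * e⁻¹ → ∃ k ∈ C[z] ⊓ C[s], k * a * k⁻¹ = b :=
    fun e he h => ⟨e⁻¹ * k, mul_mem (inv_mem he) hk, by
      rw [show e⁻¹ * k * a * (e⁻¹ * k)⁻¹ = e⁻¹ * (k * a * k⁻¹) * e by group, h]; group⟩
  have q := M.act ak t
  rcases c with c | c
  · rcases (M.uniq t' q).1 c.symm with p | p
    · exact ⟨k, hk, p⟩
    · exact fin e1 n1 (p.trans k1.symm)
  · rcases (M.uniq (M.mul t' r) q).1 c.symm with p | p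
    · exact fin e2 n2 (p.trans k2.symm)
    · refine fin (e2 * e1) (mul_mem n2 n1) (p.trans ?_)
      rw [show e2 * e1 * b * (e2 * e1)⁻¹ = e2 * (e1 * b * e1⁻¹) * e2⁻¹ by group, k1, ← conj_mul, k2,
        mul_inv_eq_iff_eq_mul.2 (mem_cent1.1 m2.2)]

end

theorem nv4 {s a : Mon} (h1 : Nb zM a) (h2 : Nb s a) (h3 : a ≠ s * zM) : ¬ V4 zM s a := by
  rintro (e | e | e | e)
  exacts [(nlp h1).r.es.z1 e, h1.2.2.2 e, h2.2.2.2 e, h3 e]

theorem tt : TT := fun s a b zs za sa zb sb na nb => by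
  obtain ⟨f, R, M⟩ := mgM.1
  obtain ⟨g, r⟩ := M.typ4 (nlp zs)
  exact tri_tr (M.twist g) (nlp zs) r ⟨za.2.2.1, sa.2.2.1⟩ za.2.1 (nv4 za sa na) ⟨zb.2.2.1, sb.2.2.1⟩ zb.2.1
    (nv4 zb sb nb)

theorem ex : EX := fun G _ _ z s τ h c hs n au tz tx => by
  have L := h.lp hs c n
  have E := L.r.es
  have PK : Qo s ⊓ C[z] ≤ C[z] ⊓ C[s] := fun x hx => ⟨hx.2, E.le_cent hx.1⟩
  have sP : s ∈ Qo s ⊓ C[z] := ⟨E.zQ, mem_cent1.2 L.comm.symm⟩
  have zP : z ∈ Qo s ⊓ C[z] := ⟨L.zQ, mem_cent1_self z⟩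
  have cP : ∀ y ∈ C[s], y ∈ C(Qo s ⊓ C[z]) → V4 z s y := fun y hy k => V4s L.comm.symm (cenP L.symm hy k)
  refine ⟨?_, fun y hy => cP y (mem_cent1.2 (mem_cent.1 hy s (PK sP)).symm) (cent_mono PK hy)⟩
  have m : ∀ x ∈ Qo s ⊓ C[z], τ x * x⁻¹ ∈ zpowers s := fun x hx => by
    rcases tx x hx with e | e <;> rw [e]
    · simp
    · rw [E.cent x hx.1]; simp
  obtain ⟨t, ht, k⟩ := E.exists_rep sP inf_le_left (fun x => τ x * x⁻¹) m (fun x hx y hy => by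
    have := E.zp_comm (m y hy) hx.1
    rw [au.mul _ (PK hx) _ (PK hy)]
    calc τ x * τ y * (x * y)⁻¹ = τ x * x⁻¹ * (x * (τ y * y⁻¹)) * x⁻¹ := by group
      _ = _ := by rw [this]; group)
    (by
      rcases tx s sP with e | e
      · rw [e, mul_inv_cancel]
      · exact absurd (au.inj s (PK sP) (e.trans E.zz)) E.z1)
  have k' : ∀ x ∈ Qo s ⊓ C[z], τ x = t * x * t⁻¹ := fun x hx =>
    (mul_left_inj x⁻¹).1 ((k x hx).symm.trans (commutatorElement_def _ _))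
  refine ⟨t, ht, ?_⟩
  have ts := E.le_cent ht
  have v : ∀ a ∈ C[z] ⊓ C[s], V4 z s (a⁻¹ * (t⁻¹ * τ a * t)) := fun a ha => by
    refine cP _ (mul_mem (inv_mem ha.2) (mul_mem (mul_mem (inv_mem ts) (au.mem a ha).2) ts)) (mem_cent.2 fun x hx => ?_)
    have := au.conj ha (PK hx)
    rw [k' _ (conj_mem_of_norm (L.symm.cent_norm_P ⟨ha.2, ha.1⟩) hx), k' x hx] at this
    calc x * (a⁻¹ * (t⁻¹ * τ a * t)) = a⁻¹ * t⁻¹ * (t * (a * x * a⁻¹) * t⁻¹) * (τ a * t) := by group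
      _ = _ := by rw [this]; group
  have w : ∀ a ∈ C[z] ⊓ C[s], ∀ y, V4 z s y → a * y = y * a := fun a ha y hy => by
    rcases hy with rfl | rfl | rfl | rfl
    exacts [by simp, mem_cent1.1 ha.1, mem_cent1.1 ha.2, by
      rw [← mul_assoc, mem_cent1.1 ha.2, mul_assoc, mem_cent1.1 ha.1, mul_assoc]]
  let H : Subgroup G := {
    carrier := {a | a ∈ C[z] ⊓ C[s] ∧ τ a = t * a * t⁻¹}
    one_mem' := ⟨one_mem _, by simp [au.one]⟩
    mul_mem' := fun a b => ⟨mul_mem a.1 b.1, by rw [au.mul _ a.1 _ b.1, a.2, b.2, conj_mul]⟩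
    inv_mem' := fun a => ⟨inv_mem a.1, by rw [au.inv a.1, a.2]; group⟩ }
  obtain ⟨f, R, M⟩ := h.1
  obtain ⟨g, r⟩ := M.typ4 L
  have : ⁅C[z] ⊓ C[s], C[z] ⊓ C[s]⁆ ≤ H := commutator_le.2 fun a ha b hb => by
    have m := mul_mem (mul_mem (mul_mem ha hb) (inv_mem ha)) (inv_mem hb)
    refine ⟨m, ?_⟩
    obtain ⟨p, e1, hp⟩ : ∃ p, τ a = t * (a * p) * t⁻¹ ∧ V4 z s p := ⟨_, by group, v a ha⟩
    obtain ⟨q, e2, hq⟩ : ∃ p, τ b = t * (b * p) * t⁻¹ ∧ V4 z s p := ⟨_, by group, v b hb⟩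
    have pK : p ∈ C[z] ⊓ C[s] := by
      rcases hp with rfl | rfl | rfl | rfl
      exacts [one_mem _, PK zP, PK sP, mul_mem (PK sP) (PK zP)]
    have c1 : Commute p (b * q) := Commute.mul_right (w b hb p hp).symm (w p pK q hq)
    have c2 : Commute q a := (w a ha q hq).symm
    rw [commutatorElement_def, au.mul _ (mul_mem (mul_mem ha hb) (inv_mem ha)) _ (inv_mem hb), au.conj ha hb, au.inv hb,
      e1, e2]
    calc _ = t * (a * (p * (b * q) * p⁻¹) * a⁻¹ * (b * q)⁻¹) * t⁻¹ := by group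
      _ = t * (a * b * (q * a⁻¹ * q⁻¹) * b⁻¹) * t⁻¹ := by rw [c1.mul_inv_cancel]; group
      _ = _ := by rw [c2.inv_right.mul_inv_cancel]
  rw [pf G _ z s _ _ (M.twist g) r] at this
  exact fun a ha => (this ha).2

end H29.AM
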