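import Cfsg.Agent.H29.AM2

/-! S5586: the plane relation in the glued amalgam (piece LT). -/

set_option autoImplicit false

namespace H29.AM
open Cfsg H15 H19 H0 H0.Mo H0.Y H7.AM H3.AM Subgroup Function
open H14.Mn (Mon zM)

universe u

local notation "κ" => MulAut.conj

theorem kinv {H : Type*} [Group H] {a p q : H} (h : κ a p = q) : κ a⁻¹ q = p := by rw [← h]; simp [mul_assoc]

/-- the centralizer of the plane is centralized by the plane only -/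
theorem plane {w e v : Mon} (zw : Nb zM w) (e1 : e ∈ Qo zM) (e2 : e ∈ Qo w)
    (h : ∀ y ∈ C[zM], y ∈ C[w] → y ∈ C[e] → v * y = y * v) :
    ∃ p, (p = 1 ∨ p = zM) ∧ ∃ q, (q = 1 ∨ q = w ∨ q = e ∨ q = w * e) ∧ v = p * q := by
  have L := nlp zw
  have E := L.l.es
  obtain ⟨f, R, M⟩ := mgM.1
  obtain ⟨g, r⟩ := M.typ4 L
  have ab := fun {x y} => mul_comm_of_comm L.abelem_E.1 (a := x) (b := y)
  have wD : w ∈ Qo zM ⊓ Qo w := ⟨L.tQ, L.r.es.zQ⟩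
  have vz : v ∈ C[zM] := mem_cent1.2 (h _ (mem_cent1_self _) (mem_cent1.2 L.comm) (mem_cent1.2 (E.cent e e1).symm))
  have vQ := ((d4_iff (M.twist g) L r).1 (cd _ _ _ _ _ (M.twist g) v vz fun x hx => by
    have := (d4_iff (M.twist g) L r).1 hx
    exact (h x (E.le_cent this.1) (L.r.es.le_cent this.2) (mem_cent1.2 (ab this ⟨e1, e2⟩))))).1
  have le : zpowers w ⊔ zpowers e ≤ Qo zM := sup_le (zpowers_le_of_mem L.tQ) (zpowers_le_of_mem e1)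
  have : v ∈ zpowers zM ⊔ (zpowers w ⊔ zpowers e) := by
    rw [← E.cent_cent (mem_sup_left (mem_zpowers _)) (sup_le E.zp_le le)]
    refine ⟨vQ, mem_cent.2 fun y hy => ?_⟩
    have := hy.2
    rw [cent_sup, cent_pair] at this
    exact (h y (E.le_cent hy.1) this.2.1 this.2.2).symm
  obtain ⟨p, hp, q, hq, k⟩ := (mem_sup_of_norm (le.trans (E.le_cent.trans (cent1_le_norm_zpowers _)))).1 this
  exact ⟨p, E.mem_zp.1 hp, q, (mem_four L.r.es.zz (abelem2_iff.1 L.abelem_E e ⟨e1, e2⟩) (ab wD ⟨e1, e2⟩)).1 hq, k⟩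

theorem fin8 {M : Type*} [Group M] {z w e p q : M} (μ γ : MulAut M) (zz : z * z = 1) (ww : w * w = 1) (ee : e * e = 1)
    (wz : w * z = z * w) (ez : e * z = z * e) (ew : e * w = w * e) (m1 : μ z = z) (m2 : μ w = e * w) (m3 : μ e = w)
    (g2 : γ w = z) (g3 : γ e = w) (z1 : z ≠ 1) (n1 : w ≠ z) (n2 : e ≠ w) (n3 : e ≠ z)
    (hp : p = 1 ∨ p = z) (hq : q = 1 ∨ q = w ∨ q = e ∨ q = w * e) (h1 : p * q * μ (p * q) * μ (μ (p * q)) = 1)
    (h2 : γ (p * q) = p * q) : p * q = 1 := by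
  have zz' : ∀ y, z * (z * y) = y := fun y => by rw [← mul_assoc, zz, one_mul]
  have ww' : ∀ y, w * (w * y) = y := fun y => by rw [← mul_assoc, ww, one_mul]
  have wz' : ∀ y, w * (z * y) = z * (w * y) := fun y => by rw [← mul_assoc, wz, mul_assoc]
  have ez' : ∀ y, e * (z * y) = z * (e * y) := fun y => by rw [← mul_assoc, ez, mul_assoc]
  have ew' : ∀ y, e * (w * y) = w * (e * y) := fun y => by rw [← mul_assoc, ew, mul_assoc]
  rcases hp with hp | hp <;> rcases hq with hq | hq | hq | hq <;> rw [hp, hq] at h1 h2 ⊢ <;>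
    simp only [map_mul, map_one, m1, m2, m3, g2, g3, mul_assoc, one_mul, mul_one, zz, ww, ee, wz, ew, zz', ww',
      wz', ez', ew'] at h1 h2 ⊢
  exacts [absurd h2.symm n1, absurd h2.symm n2, absurd (mul_left_cancel ((ew.symm.trans (ew.trans h2.symm)).trans
    wz.symm) |>.symm).symm n3, absurd h1 z1, absurd h1 z1, absurd h1 z1, absurd h1 z1]

theorem core {M G : Type*} [Group M] [Group G] {Ct Nt : Subgroup (M × G)} {Z W E a b x s : M × G}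
    (eq2 : ∀ {x y}, x ∈ Ct → y ∈ Ct → x.2 = y.2 → x = y) (hZ : Z ∈ Ct) (hW : W ∈ Ct) (hE : E ∈ Ct) (ha : a ∈ Ct)
    (hb : b ∈ Nt) (hx : x ∈ Ct) (hx' : x ∈ Nt) (cN : ∀ {n y}, n ∈ Nt → y ∈ Ct → κ y W = W → κ n y ∈ Ct)
    (nC : ∀ {n}, n ∈ Nt → κ n Z = Z → n ∈ Ct) (ZZ : Z * Z = 1) (ZW : Z * W = W * Z) (ZE : Z * E = E * Z)
    (EW : E * W = W * E) (aZ : κ a Z = Z) (aW : κ a W = E) (aE : κ a E = W) (bZ : κ b Z = W) (bW : κ b W = Z)
    (bE : κ b E = E) (xZ : κ x Z = Z) (xW : κ x W = W * Z) (xE : κ x E = E) (hs : s ∈ Ct)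
    (s2 : s.2 = (a * b * (a * b) * (a * b)).2) (z1 : Z.1 ≠ 1) (n1 : W.1 ≠ Z.1) (n2 : E.1 ≠ W.1) (n3 : E.1 ≠ Z.1)
    (pl : ∀ v : M, (∀ c ∈ Ct, κ c Z = Z → κ c W = W → κ c E = E → v * c.1 = c.1 * v) →
      ∃ p, (p = 1 ∨ p = Z.1) ∧ ∃ q, (q = 1 ∨ q = W.1 ∨ q = E.1 ∨ q = W.1 * E.1) ∧ v = p * q) :
    a * b * (a * b) * (a * b) ∈ Ct := by
  have cC : ∀ {c y}, c ∈ Ct → y ∈ Ct → κ c y ∈ Ct := fun hc hy => mul_mem (mul_mem hc hy) (inv_mem hc)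
  have kk : ∀ c y Y : M × G, κ (κ c y) Y = κ c (κ y (κ c⁻¹ Y)) := fun c y Y => by simp [mul_assoc]
  have WW : W * W = 1 := by rw [← bZ, ← map_mul, ZZ, map_one]
  have EE : E * E = 1 := by rw [← aW, ← map_mul, WW, map_one]
  let S : Subgroup (M × G) := Ct ⊓ (C[Z] ⊓ (C[W] ⊓ C[E]))
  have mS : ∀ {y}, y ∈ S ↔ y ∈ Ct ∧ κ y Z = Z ∧ κ y W = W ∧ κ y E = E := fun {y} => by
    simp only [S, Subgroup.mem_inf, mem_cent1, MulAut.conj_apply, mul_inv_eq_iff_eq_mul]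
  have aS : ∀ {y}, y ∈ S → κ a y ∈ S := fun hy => by
    obtain ⟨k0, k1, k2, k3⟩ := mS.1 hy
    refine mS.2 ⟨cC ha k0, ?_⟩
    simp only [kk, kinv aZ, kinv aW, kinv aE, k1, k2, k3, aZ, aW, aE, and_self]
  have bS : ∀ {y}, y ∈ S → κ b y ∈ S := fun hy => by
    obtain ⟨k0, k1, k2, k3⟩ := mS.1 hy
    refine mS.2 ⟨cN hb k0 k2, ?_⟩
    simp only [kk, kinv bZ, kinv bW, kinv bE, k1, k2, k3, bZ, bW, bE, and_self]
  obtain ⟨y, dy⟩ : ∃ y, y = a * b * (a * b) * (a * b) := ⟨_, rfl⟩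
  have yZ : κ y Z = Z ∧ κ y W = W ∧ κ y E = E := by
    simp only [dy, map_mul, MulAut.mul_apply, aZ, aW, aE, bZ, bW, bE, and_self]
  rw [← dy] at s2 ⊢
  have up : ∀ {c d Y Y'}, c ∈ Ct → Y ∈ Ct → Y' ∈ Ct → c.2 = d.2 → κ d Y = Y' → κ c Y = Y' := fun hc hY hY' k k' =>
    eq2 (cC hc hY) hY' (by rw [← k']; simp [k])
  have sS : s ∈ S := mS.2 ⟨hs, up hs hZ hZ s2 yZ.1, up hs hW hW s2 yZ.2.1, up hs hE hE s2 yZ.2.2⟩
  obtain ⟨ν, dν⟩ : ∃ ν, ν = y * s⁻¹ := ⟨_, rfl⟩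
  have ν2 : ν.2 = 1 := by simp [dν, s2]
  have νS : ∀ c ∈ S, κ ν c = c := fun c hc => by
    have : κ ν c ∈ S := by
      rw [dν, dy]
      simp only [map_mul, MulAut.mul_apply]
      exact aS (bS (aS (bS (aS (bS (mul_mem (mul_mem (inv_mem sS) hc) (inv_mem (inv_mem sS))))))))
    exact eq2 this.1 hc.1 (by simp [ν2])
  obtain ⟨p0, hp, q0, hq, dv⟩ := pl ν.1 fun c hc k1 k2 k3 =>
    mul_inv_eq_iff_eq_mul.1 (congrArg Prod.fst (νS c (mS.2 ⟨hc, k1, k2, k3⟩)))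
  have yab : κ (a * b) y = y := by rw [dy, MulAut.conj_apply]; group
  have νab : κ (a * b) ν = ν := by
    have m : κ (a * b) s ∈ S := by rw [map_mul]; exact aS (bS sS)
    rw [dν, map_mul (κ (a * b)), map_inv, yab, eq2 m.1 hs (by simpa [s2] using congrArg Prod.snd yab)]
  have b2C : b * b ∈ Ct := nC (mul_mem hb hb) (by simp only [map_mul, MulAut.mul_apply, bZ, bW])
  have br : κ b⁻¹ (a * a) ∈ Ct :=
    cN (inv_mem hb) (mul_mem ha ha) (by simp only [map_mul, MulAut.mul_apply, aW, aE])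
  have bx : b * x * (b * x) * (b * x) ∈ S := by
    have : κ (b * x * (b * x) * (b * x)) Z = Z ∧ κ (b * x * (b * x) * (b * x)) W = W ∧
        κ (b * x * (b * x) * (b * x)) E = E := by
      simp only [map_mul, MulAut.mul_apply, bZ, bW, bE, xZ, xW, xE, and_true]
      exact ⟨by rw [ZW, ← mul_assoc, WW, one_mul], by rw [mul_assoc Z, ← mul_assoc W, WW, one_mul, ← mul_assoc, ZZ, one_mul]⟩
    have k := mul_mem hb hx'
    exact mS.2 ⟨nC (mul_mem (mul_mem k k) k) this.1, this⟩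
  obtain ⟨d, dd⟩ : ∃ d, d = κ a (κ b (κ a (b * x))) := ⟨_, rfl⟩
  obtain ⟨m, dm⟩ : ∃ m, m = ν⁻¹ * d := ⟨_, rfl⟩
  have hm : m ∈ Ct := by
    have k : κ b (κ a x) ∈ Ct := cN hb (cC ha hx) (by simp only [kk, kinv aE, xE, aE])
    have : m = s * (κ b⁻¹ (a * a))⁻¹ * (b * b)⁻¹ * a⁻¹ * κ a (κ b (κ a x)) := by
      rw [dm, dd, dν, dy]; simp only [MulAut.conj_apply]; group
    rw [this]
    exact mul_mem (mul_mem (mul_mem (mul_mem hs (inv_mem br)) (inv_mem b2C)) (inv_mem ha)) (cC ha k)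
  have m2 : m.2 = d.2 := by simp [dm, ν2]
  have dZ : κ d Z = Z ∧ κ d W = E * W ∧ κ d E = W := by
    simp only [dd, kk, kinv aZ, kinv aW, kinv aE, kinv bZ, kinv bW, kinv bE, map_mul, MulAut.mul_apply, xZ, xW, xE,
      aZ, aW, aE, bZ, bW, bE, and_self]
  have d3 : d * d * d ∈ Ct := by
    have := (aS (bS (aS bx))).1
    rwa [map_mul (κ a), map_mul (κ a), map_mul (κ b), map_mul (κ b), map_mul (κ a), map_mul (κ a), ← dd] at this
  have one : ν * κ m ν * κ m (κ m ν) = 1 := by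
    have : ν * κ m ν * κ m (κ m ν) = d * d * d * (m * m * m)⁻¹ := by
      rw [show d = ν * m by rw [dm, mul_inv_cancel_left]]; simp only [MulAut.conj_apply]; group
    exact eq2 (this ▸ mul_mem d3 (inv_mem (mul_mem (mul_mem hm hm) hm))) (one_mem _) (by simp [ν2])
  have f := fun {c d : M × G} (k : c = d) => congrArg Prod.fst k
  have : ν.1 = 1 := dv ▸ fin8 (κ m.1) (κ (a * b).1) (f ZZ) (f WW) (f EE) (f ZW).symm (f ZE).symm (f EW)
    (f (up hm hZ hZ m2 dZ.1)) (f (up hm hW (mul_mem hE hW) m2 dZ.2.1)) (f (up hm hE hW m2 dZ.2.2))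
    (f (show κ (a * b) W = Z by simp only [map_mul, MulAut.mul_apply, bW, aZ]))
    (f (show κ (a * b) E = W by simp only [map_mul, MulAut.mul_apply, bE, aE])) z1 n1 n2 n3 hp hq
    (dv ▸ f one) (dv ▸ f νab)
  rwa [mul_inv_eq_one.1 (dν.symm.trans (Prod.ext this ν2))]

set_option maxHeartbeats 1000000 in
theorem lt : LT.{u} := by
  intro G _ Gc Gn Gl Q T z w e w₀ Ct Nt t h _ p
  have zs : Nb zM w₀ := ⟨.refl _, h.wc, h.wQ, h.wn⟩
  have L := nlp zs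
  have eq2 : ∀ {x y}, x ∈ Ct → y ∈ Ct → x.2 = y.2 → x = y := fun hx hy k =>
    mul_inv_eq_one.1 (h.c2 _ (mul_mem hx (inv_mem hy)) (by simp [k]))
  have eq1 : ∀ {x y}, x ∈ Ct → y ∈ Ct → x.1 = y.1 → x = y := fun hx hy k =>
    mul_inv_eq_one.1 (h.c1 _ (mul_mem hx (inv_mem hy)) (by simp [k]))
  have l2 : ∀ g ∈ Gc, ∃ x ∈ Ct, x.2 = g := fun g hg => mem_map.1 (h.cm2 ▸ hg)
  have l1 : ∀ g ∈ C[zM], ∃ x ∈ Ct, x.1 = g := fun g hg => mem_map.1 (h.cm1 ▸ hg)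
  have ln : ∀ g ∈ Gn, ∃ x ∈ Nt, x.2 = g := fun g hg => mem_map.1 (h.nm2 ▸ hg)
  have mn : ∀ x ∈ Nt, x.2 ∈ Gn := fun x hx => h.nm2 ▸ mem_map_of_mem _ hx
  obtain ⟨E, hE, rfl⟩ := l2 e (h.QC p.eQ)
  have eQ := (h.cQ E hE).2 p.eQ
  have hZ := h.zz
  have hW := h.ww
  have tz : κ t (zM, z) = (w₀, w) := h.tz
  have tw : κ t (w₀, w) = (zM, z) := h.tw
  obtain ⟨Z, dZ⟩ : ∃ Z, Z = (zM, z) := ⟨_, rfl⟩
  obtain ⟨W, dW⟩ : ∃ W, W = (w₀, w) := ⟨_, rfl⟩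
  rw [← dZ] at hZ tz tw
  rw [← dW] at hW tz tw
  have Z1 : Z.1 = zM := by rw [dZ]
  obtain rfl : z = Z.2 := by rw [dZ]
  obtain rfl : w = W.2 := by rw [dW]
  obtain rfl : w₀ = W.1 := by rw [dW]
  have ZZ : Z * Z = 1 := eq1 (mul_mem hZ hZ) (one_mem _) (by simp [Z1, L.l.es.zz])
  have ZW : Z * W = W * Z := eq1 (mul_mem hZ hW) (mul_mem hW hZ) (by simp [Z1, L.comm])
  have ZE : Z * E = E * Z := eq1 (mul_mem hZ hE) (mul_mem hE hZ) (by simp [Z1, L.l.es.cent _ eQ])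
  have EW : E * W = W * E := eq2 (mul_mem hE hW) (mul_mem hW hE) p.ew
  have zz : Z.2 * Z.2 = 1 := congrArg Prod.snd ZZ
  have zw : Z.2 * W.2 = W.2 * Z.2 := congrArg Prod.snd ZW
  have z1 : Z.2 ≠ 1 := fun k => L.l.es.z1 (Z1.symm.trans (congrArg Prod.fst (h.c2 _ hZ k)))
  have w1 : W.2 ≠ 1 := fun k => L.r.es.z1 (congrArg Prod.fst (h.c2 _ hW k))
  have wz : W.2 ≠ Z.2 := fun k => h.wn ((congrArg Prod.fst (eq2 hW hZ k)).trans Z1)
  have ne0 : ¬ V4 zM W.1 E.1 := fun k => p.ne (by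
    rw [← Z1] at k
    rcases k with k | k | k | k
    exacts [.inl (congrArg Prod.snd (eq1 hE (one_mem _) k)), .inr (.inl (congrArg Prod.snd (eq1 hE hZ k))),
      .inr (.inr (.inl (congrArg Prod.snd (eq1 hE hW k)))),
      .inr (.inr (.inr (congrArg Prod.snd (eq1 hE (mul_mem hW hZ) k))))])
  have mz : Z.2 ∈ closure {Z.2, W.2, E.2} := subset_closure (by simp)
  have mw : W.2 ∈ closure {Z.2, W.2, E.2} := subset_closure (by simp)
  have me : E.2 ∈ closure {Z.2, W.2, E.2} := subset_closure (by simp)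
  obtain ⟨n1, g1, a1, b1, c1⟩ := p.bas _ mz _ me _ mw z1 (fun k => p.ne (.inl k)) (fun k => p.ne (.inr (.inl k))) (by
    rintro (k | k | k | k)
    exacts [w1 k, wz k, p.ne (.inr (.inr (.inl k.symm))), p.ne (.inr (.inr (.inr (by rw [k, mul_assoc, zz, mul_one]))))])
  obtain ⟨n2, g2, a2, b2, c2⟩ := p.bas _ mw _ mz _ me w1 z1 wz.symm fun k => p.ne (V4s zw.symm k)
  obtain ⟨n3, g3, a3, b3, c3⟩ := p.bas _ mz _ (mul_mem mw mz) _ me z1
    (fun k => wz (by rw [← one_mul Z.2, ← k, mul_assoc, zz, mul_one])) (by simpa using w1) (by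
    rintro (k | k | k | k)
    exacts [p.ne (.inl k), p.ne (.inr (.inl k)), p.ne (.inr (.inr (.inr k))),
      p.ne (.inr (.inr (.inl (by rw [k, mul_assoc, zz, mul_one]))))])
  obtain ⟨a, ha, rfl⟩ := l2 n1 (p.p1 _ g1 a1)
  obtain ⟨b, hb, rfl⟩ := ln n2 (p.p2 _ g2 (.inr (.inr (.inl a2))) (.inr (.inl b2)))
  obtain ⟨x, hx, rfl⟩ := l2 n3 (p.p1 _ g3 a3)
  have hx' := h.cn x hx (p.p2 _ g3 (.inr (.inl a3)) (.inr (.inr (.inr b3))))
  have cC : ∀ {c y}, c ∈ Ct → y ∈ Ct → κ c y ∈ Ct := fun hc hy => mul_mem (mul_mem hc hy) (inv_mem hc)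
  have cN : ∀ {n y}, n ∈ Nt → y ∈ Ct → κ y W = W → κ n y ∈ Ct := fun hn hy k =>
    h.nK _ hn _ hy (of_fix (congrArg Prod.fst k))
  have nC : ∀ {n}, n ∈ Nt → κ n Z = Z → n ∈ Ct := fun hn k => h.nc _ hn (h.nz _ (mn _ hn) (congrArg Prod.snd k))
  have kZW : κ Z W = W := mul_inv_eq_iff_eq_mul.2 ZW
  have kEW : κ E W = W := mul_inv_eq_iff_eq_mul.2 EW
  have aZ : κ a Z = Z := eq2 (cC ha hZ) hZ a1
  have aW : κ a W = E := eq2 (cC ha hW) hE b1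
  have aE : κ a E = W := eq2 (cC ha hE) hW c1
  have bZ : κ b Z = W := eq2 (cN hb hZ kZW) hW a2
  have bW : κ b W = Z := eq2 (cN hb hW (by simp)) hZ b2
  have bE : κ b E = E := eq2 (cN hb hE kEW) hE c2
  have xZ : κ x Z = Z := eq2 (cC hx hZ) hZ a3
  have xW : κ x W = W * Z := eq2 (cC hx hW) (mul_mem hW hZ) b3
  have xE : κ x E = E := eq2 (cC hx hE) hE c3
  have eW : E.1 ∈ Qo W.1 := by
    have := Qo_conj eQ b.1
    rwa [← Z1, show b.1 * Z.1 * b.1⁻¹ = _ from congrArg Prod.fst bZ, show b.1 * E.1 * b.1⁻¹ = _ from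
      congrArg Prod.fst bE] at this
  have g12 := mul_mem g1 g2
  obtain ⟨s, hs, s2⟩ := l2 (a * b * (a * b) * (a * b)).2 (p.p1 _ (mul_mem (mul_mem g12 g12) g12) (congrArg Prod.snd
    (show κ (a * b * (a * b) * (a * b)) Z = Z by simp only [map_mul, MulAut.mul_apply, aZ, aW, aE, bZ, bW, bE])))
  have y := core eq2 hZ hW hE ha hb hx hx' cN nC ZZ ZW ZE EW aZ aW aE bZ bW bE xZ xW xE hs s2 (Z1 ▸ L.l.es.z1)
    (Z1 ▸ h.wn) (fun k => ne0 (.inr (.inr (.inl k)))) (fun k => ne0 (.inr (.inl (k.trans Z1)))) fun v hv =>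
    Z1 ▸ plane zs eQ eW fun g k1 k2 k3 => by
      obtain ⟨c, hc, rfl⟩ := l1 g k1
      exact hv c hc (eq1 (cC hc hZ) hZ (cfix (x := Z.1) (by rwa [Z1]))) (eq1 (cC hc hW) hW (cfix k2)) (eq1 (cC hc hE) hE (cfix k3))
  have tb : t * b ∈ Ct := nC (mul_mem h.tN hb) (by simp only [map_mul, MulAut.mul_apply, bZ, tw])
  have tb' : t⁻¹ * b ∈ Ct := nC (mul_mem (inv_mem h.tN) hb) (by simp only [map_mul κ, MulAut.mul_apply, bZ, kinv tz])
  have bb : b * b ∈ Ct := nC (mul_mem hb hb) (by simp only [map_mul, MulAut.mul_apply, bZ, bW])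
  have k : (t * b * a).1 * W.1 * (t * b * a).1⁻¹ = κ t.1 E.1 := congrArg Prod.fst
    (show κ (t * b * a) W = κ t E by simp only [map_mul, MulAut.mul_apply, aW, bE])
  have t1 : κ t.1 zM = W.1 := Z1 ▸ congrArg Prod.fst tz
  have t2 : κ t.1 W.1 = zM := Z1 ▸ congrArg Prod.fst tw
  refine ⟨_, mul_mem tb ha, ?_, fun v => ne0 ?_, a⁻¹ * (a * b * (a * b) * (a * b)) * (b * b)⁻¹,
    mul_mem (mul_mem (inv_mem ha) y) (inv_mem bb), _, cC tb' (inv_mem ha), by simp only [MulAut.conj_apply]; group⟩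
  · rw [k, ← t1]; exact Qo_conj eQ _
  · rw [k] at v
    rcases v with v | v | v | v
    · exact .inl (by simpa using v)
    · exact .inr (.inr (.inl ((κ t.1).injective (v.trans t2.symm))))
    · exact .inr (.inl ((κ t.1).injective (v.trans t1.symm)))
    · exact .inr (.inr (.inr ((κ t.1).injective (by rw [v, map_mul, t1, t2, L.comm]))))

end H29.AM
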