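import Cfsg.Agent.H29.D4s

/-! Power maps of `Sp₄(3)`. -/

set_option autoImplicit false
set_option maxRecDepth 100000

namespace H29.D4
open Subgroup H0.TR H1.Am H29.D4m H29.D4s
open H16 (evA wds nth)

section
variable {G : Type*} [Group G] {x y : G} {A : ℕ → G} {κ : List ℕ → ℕ}

theorem cj_pow {a b : ℕ} (h : IsConj x (x ^ a)) (h' : IsConj x (x ^ b)) : IsConj x (x ^ (a * b)) :=
  h'.trans (pow_mul x a b ▸ h.pow b)

theorem cj_pow' {a : ℕ} (h : IsConj x (x ^ a)) (n : ℕ) : IsConj x (x ^ a ^ n) := by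
  induction n with
  | zero => rw [pow_zero, pow_one]
  | succ n ih => exact pow_succ a n ▸ cj_pow ih h

/-- the centraliser of a conjugate of a word, from its order -/
theorem via [Finite G] (w : Wd A κ) {Z : List ℕ} {Ws : Wl} (c : IsConj y (evA A Z)) (h : x * y = y * x)
    (hc : Nat.card (centralizer {evA A Z}) = Ws.length)
    (e : incr κ Ws 0 = true ∧ allB (fun W => cjK κ W Z Z) Ws = true) : ∃ W ∈ Ws, IsConj x (evA A W) := by
  obtain ⟨d, k⟩ := isConj_iff.1 c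
  obtain ⟨W, hW, e⟩ := enum w (S := centralizer {evA A Z}) (Set.toFinite _) (fun W hW =>
    mem_centralizer_singleton_iff.2 (mul_inv_eq_iff_eq_mul.1 (w.cj.1 (allB_iff.1 e.2 W hW))))
    (by rwa [← Nat.card_coe_set_eq]) e.1 (d * x * d⁻¹)
    (mem_centralizer_singleton_iff.2 (by rw [← k, conj_mul, conj_mul, h]))
  exact ⟨W, hW, isConj_iff.2 ⟨d, e⟩⟩

def Q (x : G) : Prop := ∀ j : ℕ, j.Coprime 30 → j % 3 = 1 → IsConj x (x ^ j)

theorem Q.cj (h : Q y) (c : IsConj x y) : Q x := fun j a b => (c.trans (h j a b)).trans (c.pow j).symm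

theorem res : ∀ j < 360, j.Coprime 30 → j % 3 = 1 →
    ∃ a < 12, ∃ b < 2, ∃ c < 2, 7 ^ a * 91 ^ b * 181 ^ c % 360 = j := by decide +kernel

theorem Q_of {n : ℕ} (hn : n ∣ 360) (h : x ^ n = 1) (h1 : IsConj x (x ^ (7 % n)))
    (h2 : IsConj x (x ^ (91 % n))) (h3 : IsConj x (x ^ (181 % n))) : Q x := fun j a b => by
  rw [← pow_eq_pow_mod _ h] at h1 h2 h3
  have h' : x ^ 360 = 1 := by obtain ⟨m, e⟩ := hn; rw [e, pow_mul, h, one_pow]
  obtain ⟨u, -, v, -, w, -, e⟩ := res (j % 360) (Nat.mod_lt _ (by norm_num))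
    (by rw [Nat.Coprime, Nat.gcd_comm, Nat.gcd_rec, Nat.mod_mod_of_dvd _ (by norm_num), ← Nat.gcd_rec,
      Nat.gcd_comm]; exact a) (by omega)
  rw [pow_eq_pow_mod j h', ← e, ← pow_eq_pow_mod _ h']
  exact cj_pow (cj_pow (cj_pow' h1 u) (cj_pow' h2 v)) (cj_pow' h3 w)

noncomputable def chk (κ : List ℕ → ℕ) (n : ℕ) (d : List ℕ × List ℕ × List ℕ × List ℕ) : Bool :=
  eqK κ (rep d.1 n) [] && cjK κ d.2.1 d.1 (rep d.1 (7 % n)) && cjK κ d.2.2.1 d.1 (rep d.1 (91 % n)) &&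
    cjK κ d.2.2.2 d.1 (rep d.1 (181 % n))

theorem Q_via [Finite G] (w : Wd A κ) {Z : List ℕ} (L : List (List ℕ × List ℕ × List ℕ × List ℕ)) (n : ℕ)
    {m c : ℕ} (k : IsConj (x ^ m) (evA A Z)) (hc : Nat.card (centralizer {evA A Z}) = c)
    (e : (c = (L.map (·.1)).length ∧ n ∣ 360 ∧ allB (chk κ n) L = true) ∧ incr κ (L.map (·.1)) 0 = true ∧
      allB (fun W => cjK κ W Z Z) (L.map (·.1)) = true) : Q x := by
  obtain ⟨_, hW, k⟩ := via w k (pow_mul_comm' x m).symm (hc.trans e.1.1) e.2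
  obtain ⟨d, hd, rfl⟩ := List.mem_map.1 hW
  have := allB_iff.1 e.1.2.2 d hd
  simp only [chk, Bool.and_eq_true, w.cj, w.one, evA_rep'] at this
  exact (Q_of e.1.2.1 this.1.1.1 (isConj_iff.2 ⟨_, this.1.1.2⟩) (isConj_iff.2 ⟨_, this.1.2⟩)
    (isConj_iff.2 ⟨_, this.2⟩)).cj k

theorem pw_cj {n : ℕ} (c : IsConj x y) (h : y ^ n = 1) : x ^ n = 1 := by
  have := c.pow n
  rwa [h, isConj_one_left] at this

end

noncomputable def κ : List ℕ → ℕ := H15.CS.key (tot P 10) 80 B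

theorem wd : Wd g κ := by
  have := wd_of md.sm (ι := MonoidHom.id _) Function.injective_id
  rwa [show (fun k => (MonoidHom.id Sp) (if k < 10 then g k else 1)) = g from funext fun k => by
    by_cases h : k < 10 <;> simp [g, h]] at this

theorem q_sp (x : Sp) : Q x := by
  have hx : x ^ 51840 = 1 := card ▸ pow_card_eq_one'
  have pw : ∀ {W n}, eqK κ (rep W n) [] = true → evA g W ^ n = 1 := fun h => evA_rep' g _ _ ▸ wd.one.1 h
  have h5 : x ^ 10368 = 1 ∨ Q x := (cv5 md (y := x ^ 10368) (e := 1) (by rwa [← pow_mul])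
    (by rwa [← pow_mul])).imp_right fun ⟨r, hr, k⟩ => by
      obtain rfl : r = 0 := by omega
      exact Q_via wd L5 10 k (c5_0_card md) (by decide +kernel)
  have h2 : x ^ 810 = 1 ∨ Q x := by
    rcases cv2 md (y := x ^ 405) (e := 7) (by rwa [← pow_mul]) (by rwa [← pow_mul]) with k | ⟨r, hr, k⟩
    · exact .inl (by rw [show 810 = 405 * 2 from rfl, pow_mul, k, one_pow])
    interval_cases r
    iterate 2 exact .inl ((pow_mul x 405 2).trans (pw_cj k (pw (by decide +kernel))))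
    · exact .inr (Q_via wd L0 24 k (c2_2_card md) (by decide +kernel))
    · exact .inr (Q_via wd L1 12 k (c2_3_card md) (by decide +kernel))
    · exact .inr (Q_via wd L1 12 k (c2_4_card md) (by decide +kernel))
    · exact .inr (Q_via wd L2 8 k (c2_5_card md) (by decide +kernel))
  have h3 : x ^ 1920 = 1 ∨ Q x := by
    rcases cv3 md (y := x ^ 640) (e := 4) (by rwa [← pow_mul]) (by rwa [← pow_mul]) with k | ⟨r, hr, k⟩
    · exact .inl (by rw [show 1920 = 640 * 3 from rfl, pow_mul, k, one_pow])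
    interval_cases r
    iterate 4 exact .inl ((pow_mul x 640 3).trans (pw_cj k (pw (by decide +kernel))))
    · exact .inr (Q_via wd L3 18 k (c3_4_card md) (by decide +kernel))
    · exact .inr (Q_via wd L4 18 k (c3_5_card md) (by decide +kernel))
  refine h5.elim (fun a => h2.elim (fun b => h3.elim (fun c j u v => ?_) id) id) id
  have : x ^ 6 = 1 := pow_gcd_eq_one.2 ⟨a, pow_gcd_eq_one.2 ⟨b, c⟩⟩
  have u2 : ¬ 2 ∣ j := fun e => absurd (Nat.Coprime.coprime_dvd_left e u) (by decide)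
  rw [pow_eq_pow_mod j this, show j % 6 = 1 by omega, pow_one]
  exact IsConj.refl x

end H29.D4
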