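/-
S2935, chunks `C2` and `TI`: a group of automorphisms of coprime order fixing a parabolic subgroup fixes an opposite one.
-/
import Cfsg.Agent.H20.EF0
import Cfsg.Agent.H8.LieSm2
import Cfsg.Agent.H27.ID2
import Cfsg.Agent.H2.CoprimeAbelian
import Cfsg.Agent.S1074

set_option autoImplicit false
set_option linter.unusedSectionVars false
set_option linter.unusedVariables false

namespace H29.EF
open Cfsg Subgroup H8 H8.SB H28 H20.EF MulAction
open scoped Pointwise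

variable {r p : ℕ} {G κ : Type*} [Group G] [Finite G] [Fact r.Prime] {S : SB r G κ} {P Q Y : Subgroup G} {g x : G}
  {β : MulAut G} {A : Subgroup (MulAut G)} {j k : κ}

theorem opp (j : κ) : ∃ k, Cin (S.X k) (S.X j) ((S.s j)⁻¹ * S.n0)⁻¹ ∧ ∃ t ∈ S.H, S.s k * ((S.s j)⁻¹ * S.n0)⁻¹ = S.n0 * t := by
  set n := (S.s j)⁻¹ * S.n0 with e
  have hn : n ∈ S.N := mul_mem (inv_mem (S.s_mem j)) S.n0_mem
  have h0 : ∀ v ∈ S.D n, v ∈ S.X j := fun v hv => by
    obtain ⟨y, hy, w, hw, rfl⟩ := exists_XV j hv.1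
    have := mul_mem (inv_mem (mem_D.2 ⟨S.X_le j hy, pos_s_inv_n0 j y hy⟩)) hv
    rw [eq_one_of_DV (n := n) (by simpa [e] using D_eq_bot S.n0_mem not_pos_n0) (by simpa using this) hw, mul_one]
    exact hy
  obtain ⟨k, hk⟩ : ∃ k, S.Pos n⁻¹ k := by
    by_contra a
    push Not at a
    exact s_not_mem (S := S) j (by simpa [e, mul_assoc] using S.N_H _ (inv_mem S.n0_mem) _ (mul_n0_mem (inv_mem hn) a))
  have h1 : Cin (S.X k) (S.X j) n⁻¹ := fun z hz => h0 _ (mem_D.2 ⟨hk z hz, by simpa [mul_assoc] using S.X_le k hz⟩)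
  have h2 := (S.root n hn k j (pos_s_inv_n0 j)).resolve_left fun a => by
    obtain ⟨z, hz, hne⟩ := S.exists_ne_one k
    exact hne (eq_one_of_XV hz (mem_V.2 ⟨S.X_le k hz, by simpa [mul_assoc] using a _ (h1 z hz)⟩))
  have h3 : S.D (S.s k * n⁻¹) = ⊥ := eq_bot_iff.2 fun u hu => by
    have a1 := s_cin_V u (mem_V_of_not_pos (mul_mem (S.s_mem k) (inv_mem hn)) (not_pos_s_mul (inv_mem hn) hk) hu.1
      (mem_D.1 hu).2)
    have a2 := (h2 _).1 (h0 _ (mem_D.2 ⟨(mem_D.1 hu).2, by simpa [mul_assoc] using V_le a1⟩))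
    have := eq_one_of_XV (by simpa [mul_assoc] using a2) a1
    simpa [mul_assoc] using congrArg (fun x => S.s k * x * (S.s k)⁻¹) this
  exact ⟨k, h1, exists_n0_mul (mul_mem (S.s_mem k) (inv_mem hn)) fun i a => S.X_ne i
    (eq_bot_iff.2 fun y hy => h3.le (mem_D.2 ⟨S.X_le i hy, a y hy⟩))⟩

theorem inv_maps {T : Set G} (h : ∀ x ∈ T, β x ∈ T) : ∀ x ∈ T, β⁻¹ x ∈ T := fun x hx =>
  (mem_stabilizer_set.1 (inv_mem ((mem_stabilizer_set' T.toFinite).2 h : β ∈ stabilizer (MulAut G) T)) x).2 hx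

theorem inv_maps' (h : ∀ x ∈ P, β x ∈ P) : ∀ x ∈ P, β⁻¹ x ∈ P := inv_maps (T := (P : Set G)) h

theorem cell_map (h : ∀ x ∈ S.U, β x ∈ S.U) (c : S.Cell S.n0 g) : S.Cell S.n0 (β g) := by
  obtain ⟨u, hu, n, hn, v, hv, e⟩ := S.bruhat (β g)
  obtain ⟨t, ht, rfl⟩ := exists_n0_mul hn fun i a => by
    obtain ⟨y, hy, hne⟩ := S.exists_ne_one i
    obtain ⟨u', hu', b, hb, rfl⟩ := c
    have a1 := inv_maps' h _ (mul_mem (mul_mem hu (S.X_le i hy)) (inv_mem hu))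
    have a2 := inv_maps' h _ (cin_of_mem hv _ (a y hy))
    have a3 : β⁻¹ (v⁻¹ * (n⁻¹ * y * n) * v) = (u' * S.n0 * b)⁻¹ * β⁻¹ (u * y * u⁻¹) * (u' * S.n0 * b) := by
      apply β.injective
      rw [map_mul β, map_mul β, map_inv β, e]
      simp [mul_assoc]
    rw [a3] at a2
    have : β⁻¹ (u * y * u⁻¹) = 1 := by
      generalize β⁻¹ (u * y * u⁻¹) = z at a1 a2
      simpa [mul_assoc] using congrArg (u' * · * u'⁻¹)
        (S.opp _ (cin_of_mem hu' _ a1) (by simpa [mul_assoc] using B_cin_U (inv_mem hb) _ a2))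
    exact hne (by simpa [mul_inv_eq_iff_eq_mul] using (map_eq_one_iff _ β⁻¹.injective).1 this)
  exact ⟨u, hu, t * v, mul_mem (H_le_B ht) (U_le_B hv), by rw [e]; group⟩

variable (S P) in
/-- the set `B n₀ P` -/
def W : Set G := {g | ∃ y ∈ P, S.Cell S.n0 (g * y)}
variable (S P) in
/-- the parabolic subgroup of the type opposite to `P` -/
abbrev Op : Subgroup G := stabilizer G (W S P)

theorem mem_Op (h : ∀ g ∈ W S P, x * g ∈ W S P) : x ∈ Op S P := (mem_stabilizer_set' (W S P).toFinite).2 h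
theorem Op_mul (h : x ∈ Op S P) (hg : g ∈ W S P) : x * g ∈ W S P := (mem_stabilizer_set.1 h g).2 hg
theorem B_le_Op : S.B ≤ Op S P := fun b hb => mem_Op fun g ⟨y, hy, c⟩ => ⟨y, hy, mul_assoc b g y ▸ c.B_mul S.n0_mem hb⟩

theorem Op_ne (hB : S.B ≤ P) (hP : P ≠ ⊤) : Op S P ≠ ⊤ := fun e => by
  obtain ⟨y, hy, u, hu, b, hb, c⟩ := Op_mul (e.ge (mem_top S.n0⁻¹)) (⟨1, one_mem _, by simpa using cell_self⟩ : S.n0 ∈ W S P)
  rw [inv_mul_cancel, one_mul] at c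
  have : S.n0 ∈ P := by simpa [c, mul_assoc] using mul_mem (mul_mem (inv_mem (hB (U_le_B hu))) hy) (inv_mem (hB hb))
  exact hP (eq_top_of (U_le_B.trans hB) (H_le_B.trans hB) fun i => s_mem_of_not_pos hB S.n0_mem this (not_pos_n0 i))

theorem s_mem_Op (hB : S.B ≤ P) (h : Cin (S.X k) P S.n0⁻¹) : S.s k ∈ Op S P := mem_Op fun g ⟨y, hy, u, hu, b, hb, c⟩ => by
  have h1 : S.X k ≤ cj S.n0 P := fun x hx => mem_cj.2 (by simpa [mul_assoc] using h _ (S.H_X k _ n0_sq x hx))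
  have h2 : S.s k ∈ cj S.n0 P := s_mem_of h1 (fun x hx => mem_cj.2 (hB (H_le_B (S.N_H _ S.n0_mem x hx))))
    fun x hx => mem_cj.2 (by simpa [mul_assoc] using hB (U_le_B (pos_s_n0 k x hx)))
  obtain ⟨v, hv, z, hz, rfl⟩ := exists_VX k hu
  refine ⟨y * b⁻¹ * (S.n0⁻¹ * (S.s k * z) * S.n0)⁻¹, mul_mem (mul_mem hy (inv_mem (hB hb)))
    (inv_mem (mem_cj.1 (mul_mem h2 (h1 hz)))), _, V_le (s_inv_cin_V v hv), 1, one_mem _, ?_⟩
  rw [eq_mul_inv_of_mul_eq c]; group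

theorem exists_U (hB : S.B ≤ P) (hg : g ∈ W S P) : ∃ u ∈ S.U, ∃ x ∈ Op S P, g⁻¹ = u * S.n0 * x := by
  let E : Set G := {g | ∃ u ∈ S.U, ∃ x ∈ Op S P, g = u * S.n0 * x}
  have hH : S.H ≤ Op S P := H_le_B.trans B_le_Op
  have l : P ≤ stabilizer G E := le_of_s hB (fun b hb => (mem_stabilizer_set' E.toFinite).2 ?_) fun j hj =>
    inv_mem_iff.1 ((mem_stabilizer_set' E.toFinite).2 ?_)
  · obtain ⟨y, hy, u, hu, b, hb, c⟩ := hg
    have := (mem_stabilizer_set.1 (l (mul_mem hy (inv_mem (hB hb)))) _).2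
      (⟨1, one_mem _, _, mul_mem (hH (inv_mem n0_sq)) (B_le_Op (U_le_B (inv_mem hu))), rfl⟩ : _ ∈ E)
    rw [eq_mul_inv_of_mul_eq c]
    exact this.imp fun v a => ⟨a.1, a.2.imp fun x e => ⟨e.1, by simpa [mul_assoc] using e.2⟩⟩
  · rintro _ ⟨u, hu, x, hx, rfl⟩
    obtain ⟨v, hv, t, ht, rfl⟩ := mem_B.1 hb
    exact ⟨_, mul_mem hv (H_U' ht hu), _, mul_mem (hH (S.N_H _ S.n0_mem t ht)) hx, by simp [mul_assoc]⟩
  · rintro _ ⟨u, hu, x, hx, rfl⟩
    obtain ⟨v, hv, y, hy, rfl⟩ := exists_VX j hu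
    by_cases y1 : y = 1
    · obtain ⟨k, h1, t, ht, e⟩ := opp (S := S) j
      have a := s_mem_Op (k := k) hB fun z hz => by
        simpa [mul_assoc] using cin_of_mem (inv_mem hj) _ (hB (U_le_B (S.X_le j (h1 z hz))))
      refine ⟨_, V_le (s_cin_V v hv), _, mul_mem (mul_mem (hH (inv_mem (mul_mem (N_H' S.n0_mem ht) n0_sq))) a) hx, ?_⟩
      rw [mul_inv_eq_iff_eq_mul.1 e, y1, smul_eq_mul]; group
    · obtain ⟨a, ha, t, ht, b, hb, e⟩ := S.rank1 j y hy y1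
      refine ⟨_, mul_mem (V_le (s_cin_V v hv)) (S.X_le j ha), _, mul_mem (mul_mem (hH (S.N_H _ S.n0_mem _
        (N_H' (S.s_mem j) ht))) (B_le_Op (U_le_B (pos_s_inv_n0 j b hb)))) hx, ?_⟩
      rw [show y = S.s j * (a * S.s j * t * b) * (S.s j)⁻¹ by rw [← e]; group, smul_eq_mul]; group

theorem map_Op (h : ∀ x ∈ S.U, β x ∈ S.U) (h' : ∀ x ∈ P, β x ∈ P) : (Op S P).map β.toMonoidHom = Op S P := by
  have w : ∀ β : MulAut G, (∀ x ∈ S.U, β x ∈ S.U) → (∀ x ∈ P, β x ∈ P) → ∀ g ∈ W S P, β g ∈ W S P :=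
    fun β h h' g ⟨y, hy, c⟩ => ⟨_, h' y hy, map_mul β g y ▸ cell_map h c⟩
  have a : ∀ x ∈ Op S P, β x ∈ Op S P := fun x hx => mem_Op fun g hg => by
    simpa using w β h h' _ (Op_mul hx (inv_maps (w β h h') g hg))
  exact le_antisymm (map_le_iff_le_comap.2 a) fun x hx => ⟨_, inv_maps' a x hx, by simp⟩

theorem adj (hU : S.U ≤ Y) (h : ∀ y ∈ Y, β y ∈ Y) : ∃ c ∈ Y, ∀ x ∈ S.U, (MulAut.conj c * β) x ∈ S.U := by
  obtain ⟨c, hc, l⟩ := (isSylowIn_of_sylow_le S.syl hU).exists_conj_le (S.pU.map β.toMonoidHom)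
    (map_le_iff_le_comap.2 fun x hx => h x (hU hx))
  exact ⟨c, hc, fun x hx => l (conj_mem_cj (mem_map_of_mem _ hx))⟩

/-- a `p`-group of automorphisms fixing the parabolic `P` fixes an `r`-subgroup outside `P` -/
theorem fixed [Fact p.Prime] (hR : S.Rad) (hB : S.B ≤ P) (hP : P ≠ ⊤) (hA : IsPGroup p A) (ne : p ≠ r)
    (h : ∀ a ∈ A, ∀ y ∈ P, a y ∈ P) : ∃ R : Subgroup G, IsPGroup r R ∧ ¬ R ≤ P ∧ ∀ a ∈ A, ∀ x ∈ R, a x ∈ R := by
  let R := pCoreOf r (Op S P)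
  let T := S.U.map (MulAut.conj : G →* MulAut G)
  have o : ∀ Z, Z ∈ orbit T (cj S.n0 R) ↔ ∃ u ∈ S.U, cj (u * S.n0) R = Z := fun Z =>
    ⟨by rintro ⟨⟨_, u, hu, rfl⟩, rfl⟩; exact ⟨u, hu, (cj_cj _ _ _).symm⟩,
      by rintro ⟨u, hu, rfl⟩; exact ⟨⟨_, u, hu, rfl⟩, cj_cj _ _ _⟩⟩
  let Ω : SubMulAction A (Subgroup G) := ⟨orbit T (cj S.n0 R), fun a Z hZ => by
    obtain ⟨u, hu, rfl⟩ := (o Z).1 hZ
    obtain ⟨c, hc, l⟩ := adj (U_le_B.trans hB) (h a a.2)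
    have e := map_pCoreOf (p := r) (f := (MulAut.conj c * a.1).toMonoidHom) (MulEquiv.injective _) (Op S P)
    rw [map_Op l fun x hx => by simpa using cin_of_mem (inv_mem hc) _ (h a a.2 x hx)] at e
    obtain ⟨v, hv, x, hx, e'⟩ := exists_U (g := ((MulAut.conj c * a.1) (u * S.n0))⁻¹ * c) hB
      ⟨c⁻¹, inv_mem hc, by simpa only [mul_inv_cancel_right] using (cell_map l (cell_self.U_mul hu)).n0_inv⟩
    refine (o _).2 ⟨v, hv, .symm ((H28.map_cj a.1.toMonoidHom _ _).trans ?_)⟩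
    rw [show R.map a.1.toMonoidHom = cj c⁻¹ R from cj_eq_iff.1 ((map_map _ _ _).trans e), cj_cj,
      show a.1.toMonoidHom (u * S.n0) * c⁻¹ = v * S.n0 * x by rw [← e']; simp [mul_assoc], ← cj_cj _ x,
      cj_eq_self (le_normalizer_pCoreOf r _ hx)]⟩
  obtain ⟨n, hn⟩ := (S.pU.map (MulAut.conj : G →* MulAut G)).card_orbit (cj S.n0 R)
  obtain ⟨⟨Z, hZ⟩, f⟩ := hA.nonempty_fixed_point_of_prime_not_dvd_card Ω (by
    rw [show Nat.card Ω = r ^ n from hn]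
    exact fun d => ne ((Nat.prime_dvd_prime_iff_eq Fact.out Fact.out).1 ((Fact.out : p.Prime).dvd_of_dvd_pow d)))
  obtain ⟨u, hu, rfl⟩ := (o Z).1 hZ
  refine ⟨_, isPGroup_cj (u * S.n0) (isPGroup_pCoreOf r _), fun l => ?_, fun a ha x hx =>
    (congrArg Subtype.val (f ⟨a, ha⟩)).le (mem_map_of_mem _ hx)⟩
  obtain ⟨k, hk⟩ := exists_s_not_mem B_le_Op (Op_ne hB hP)
  obtain ⟨R', h1, h2, h3, h4⟩ := hR k
  have := h1.trans (le_pCoreOf (S.pU.to_le h2) (h2.trans (U_le_B.trans B_le_Op)) (le_of_s B_le_Op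
    (fun b hb => (h3 b hb).mem_normalizer) fun i hi => (h4 i (X_ne_of_mem B_le_Op hi hk)).mem_normalizer))
  exact hk (s_mem_Op hB fun x hx => by
    simpa [mul_assoc] using cin_of_mem (hB (U_le_B hu)) _ (l (conj_mem_cj (this hx))))

theorem gen [Fact p.Prime] (hZ : center G = ⊥) (h : PS p A Y) (ne : p ≠ r) {R : Subgroup G} (hR : IsPGroup r R)
    (i : ∀ a ∈ A, ∀ x ∈ R, a x ∈ R) : R ≤ Y := by
  have j : Function.Injective (MulAut.conj : G →* MulAut G) :=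
    (injective_iff_map_eq_one _).2 fun u h => mem_bot.1 (hZ ▸ mem_center_iff.2 fun x =>
      (mul_inv_eq_iff_eq_mul.1 (DFunLike.congr_fun h x)).symm)
  have c : ∀ (a : MulAut G) x, a * MulAut.conj x * a⁻¹ = MulAut.conj (a x) := fun a x => by ext; simp
  have : IsMulCommutative A := ⟨⟨fun a b => Subtype.ext (h.com a a.2 b b.2)⟩⟩
  refine (map_le_map_iff_of_injective j).1 (H2.le_of_centralizer_le (A := A) (fun y => ?_) (le_normalizer_of_cj_le ?_)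
    (IsPGroup.coprime_card_of_ne p r ne _ _ (fun a => ⟨1, Subtype.ext (by simpa using h.exp a a.2)⟩) (hR.map _)) ?_)
  · have := Nat.le_of_dvd (Fact.out : p.Prime).pos
      (IsCyclic.exponent_eq_card (α := A) ▸ Monoid.exponent_dvd_of_forall_pow_eq_one fun a => Subtype.ext (h.exp a a.2))
    have := h.big
    have := (Fact.out : p.Prime).two_le
    nlinarith
  · rintro a ha _ ⟨_, ⟨x, hx, rfl⟩, rfl⟩
    exact ⟨_, i a ha x hx, (c a x).symm⟩
  · rintro a ha a1 _ ⟨⟨x, hx, rfl⟩, e⟩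
    exact ⟨x, h.fix a ha a1 x (j (by rw [← c, ← mem_centralizer_singleton_iff.1 e, mul_inv_cancel_right])), rfl⟩

theorem c2 : C2 := fun K _ _ _ p _ A Y ne hK h => by
  obtain ⟨κ, _, _, S, -, hR, hT⟩ := lieBT_of_lieType hK
  obtain ⟨P, hP⟩ := H24.exists_sylow_le_of_not_dvd_index h.odd.not_two_dvd_nat
  obtain ⟨g, hg⟩ := S.exists_conj P
  have hU : S.U ≤ Y.comap ((MulAut.conj g⁻¹).symm : K →* K) := fun u hu => hP ((hg _).2 (by simpa [mul_assoc] using hu))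
  replace h := h.congr (MulAut.conj g⁻¹)
  generalize A.map (MulAut.congr (MulAut.conj g⁻¹) : MulAut K →* MulAut K) = A,
    Y.comap ((MulAut.conj g⁻¹).symm : K →* K) = Y at h hU
  obtain ⟨g, M, m, l, c⟩ := hT _ (isPGroup_pCoreOf 2 Y) fun e =>
    h.ne ((lieSB_of_lieType hK).over Y (pCoreOf_eq_bot_iff.1 e) h.odd.not_two_dvd_nat)
  replace c := c.mono (le_normalizer_pCoreOf 2 Y) le_rfl
  obtain ⟨x, hx, e⟩ := (isSylowIn_of_sylow_le S.syl (U_le_B.trans l)).exists_conj_le (isPGroup_cj g⁻¹ S.pU)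
    (cj_le.2 (c.mono hU le_rfl))
  have : g * x⁻¹ ∈ M := l (mem_B_of_cin (cj_le.1 (by rwa [cj_cj, ← inv_inv x, ← mul_inv_rev] at e)))
  have : Y ≤ M := fun y hy => by
    simpa [mul_assoc] using cin_of_mem (inv_mem (by simpa using mul_mem this hx : g ∈ M)) _ (c y hy)
  obtain ⟨R, a, b, d⟩ := fixed (P := Y ⊔ S.B) (A := A) hR le_sup_right (fun e => m (top_le_iff.1 (e ▸ sup_le this l)))
    (fun a => ⟨1, Subtype.ext (by simpa using h.exp a a.2)⟩) ne fun a ha => by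
      refine (sup_le (fun y hy => mem_sup_left (h.inv a ha y hy)) fun b hb => ?_ : _ ≤ (Y ⊔ S.B).comap a.toMonoidHom)
      obtain ⟨c, hc, l⟩ := adj hU (h.inv a ha)
      have : (MulAut.conj c * a) b ∈ S.B := mem_B_of_cin fun u hu => by
        simpa [mul_assoc] using l _ (B_cin_U hb _ (inv_maps' l u hu))
      simpa [mul_assoc] using cin_of_mem (mem_sup_left hc) _ (mem_sup_right this : _ ∈ Y ⊔ S.B)
  exact b ((gen (lieSB_of_lieType hK).center_eq_bot h ne a d).trans le_sup_left)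

theorem par {S : SB 2 G κ} {K M : Subgroup G} {c : ℕ} (h : S.Sm K c) (l : S.B ≤ M)
    (n : M ≠ ⊤) : ∃ e, 0 < e ∧ e ≤ c + 1 ∧ Nat.card M ∣ Nat.card S.U * e := by
  obtain ⟨k, hk⟩ := exists_s_not_mem l n
  obtain ⟨a, b, t⟩ := h.two
  obtain ⟨i, hi⟩ : ∃ i, ∀ j, S.X j ≠ S.X k → S.X i = S.X j := (t k).elim
    (fun e => ⟨b, fun j n => ((t j).resolve_left fun e' => n (e'.trans e.symm)).symm⟩)
    fun e => ⟨a, fun j n => ((t j).resolve_right fun e' => n (e'.trans e.symm)).symm⟩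
  have : M ≤ 𝐍 (S.V i) := le_of_s l H27.ID.B_le_P fun j hj => (mul_mem_cancel_left
    (H27.ID.mem_P.2 (.inr cell_self))).1 (H27.ID.B_le_P (H_le_B (s_mul_s_mem (hi j (X_ne_of_mem l hj hk)))))
  refine ⟨_, Nat.succ_pos _, Nat.succ_le_succ (h.card i), (card_dvd_of_le this).trans (Eq.dvd ?_)⟩
  rw [← h.B_eq, Nat.succ_eq_add_one, ← H27.ID.relIndex_P, ← card_subgroupOf (H27.ID.B_le_P (S := S) (i := i))]
  exact (card_mul_index _).symm

theorem ti : TI := fun K _ _ _ p _ A Y ne hK h => by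
  have r : pCoreOf 2 Y ≠ ⊥ := fun e => h.ne (over_of_chev Agent.S1074.result.1 (.inr (.inl ⟨rfl, .inr (.inr hK)⟩)) Y
    (pCoreOf_eq_bot_iff.1 e) h.odd.not_two_dvd_nat)
  obtain ⟨e⟩ := hK
  let f := (commutator _).subtype.comp e.toMonoidHom
  have j : Function.Injective f := (subtype_injective _).comp e.injective
  obtain ⟨g, M, m, l, c⟩ := twE_2F4.bt 2 _ ((isPGroup_pCoreOf 2 Y).map f) (mt (map_eq_bot_iff_of_injective _ j).1 r)
  obtain ⟨k, k0, k5, t⟩ := par (sm2F4 Agent.S1074.result.1) l m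
  have : cj g⁻¹ (Y.map f) ≤ M :=
    le_cj_iff.1 fun x hx => mem_cj.2 (c x (le_normalizer_map f (map_mono (le_normalizer_pCoreOf 2 Y) hx)))
  have := (card_dvd_of_le this).trans t
  rw [card_cj, card_map_of_injective j, card_sb2F4_U] at this
  have a := (Nat.card_congr e.toEquiv).trans Agent.S1074.result.2.2.2
  have d := h.dvd
  have b : ∀ n, p ^ n ∣ Nat.card K → p ^ n ∣ 4096 * k := fun n hn =>
    ((((Fact.out : p.Prime).coprime_iff_not_dvd.2 h.nd).pow_left n).dvd_of_dvd_mul_right (Y.card_mul_index ▸ hn)).trans this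
  rw [a] at d b
  have q : p.Prime := Fact.out
  simp only [q.dvd_mul, q.prime.dvd_pow_iff_dvd two_ne_zero, q.prime.dvd_pow_iff_dvd three_ne_zero,
    q.prime.dvd_pow_iff_dvd (by decide : 11 ≠ 0)] at d
  rcases d with ((d | d) | d) | d <;> rw [Nat.prime_dvd_prime_iff_eq q (by norm_num)] at d <;> subst d
  · exact ne rfl
  · have := b 3 (by decide); omega
  · have := b 2 (by decide); omega
  · have := b 1 (by decide); omega

end H29.EF
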