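/-
S3325 (Wong): chunk P2, geometric part.
-/
import Cfsg.Agent.H29.WO3

set_option autoImplicit false
set_option linter.unusedSectionVars false
set_option linter.unusedVariables false

namespace H29.WO
open Cfsg Subgroup H19 H12 H11 QuadraticMap Module H20.WO
open H22 (Om)
universe u v

variable {F : Type u} [Field F] [Finite F] {V V' : Type u} [AddCommGroup V] [Module F V] [FiniteDimensional F V]
  [AddCommGroup V'] [Module F V'] [FiniteDimensional F V'] {Q : QuadraticForm F V} {R : QuadraticForm F V'}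

theorem jt_rr (H : NQ Q) {g : orth Q} (J : Jt g) : ∃ a b, Q a = 1 ∧ Q b = 1 ∧ polar Q a b = 0 ∧ g = refl Q a * refl Q b := by
  have hB := H.nd_Ng J.sq
  obtain ⟨a, ha, a1⟩ := H.exq hB J.dim.ge one_ne_zero
  have a0 : Q a ≠ 0 := a1 ▸ one_ne_zero
  have gm := H.mem_Om.1 J.mem
  obtain ⟨b, hb, b0, e⟩ := exists_eq_refl_of_plane H.nd H.two hB J.dim (g * refl Q a)
    (mul_mem (show g ∈ Fx Q (pp Q (Ng g)) from fun x hx => mem_Ps.1 ((H.pp_Ng J.sq).le hx)) (refl_fix ha))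
    (by simp [gm.1, H.dk a0])
  obtain ⟨s, hs⟩ : IsSquare (Q b) := qsign_eq_one.1 (by rw [← H.sp b0, ← e, map_mul, gm.2, H.sp a0, a1]; simp)
  have s0 : s ≠ 0 := by rintro rfl; simp_all
  have ba : polar Q b a = 0 := H.perp_of (g := refl Q b)
    (by rw [← e, orth_mul_apply, refl_apply_self a0, map_neg, mem_Ng.1 ha, neg_neg]) (refl_apply_self b0)
  exact ⟨s⁻¹ • b, a, by rw [Q_smul, hs]; field_simp, a1, by simp [ba], by
    rw [refl_smul (inv_ne_zero s0), ← e, mul_assoc, refl_mul_self, mul_one]⟩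

theorem move (H : NQ Q) (d : 4 ≤ finrank F V) {a b x y : V} (a1 : Q a = 1) (b1 : Q b = 1) (ab : polar Q a b = 0)
    (x1 : Q x = 1) (y1 : Q y = 1) (xy : polar Q x y = 0) : ∃ g : Om Q, g.1.1 a = x ∧ g.1.1 b = y := by
  have x0 : Q x ≠ 0 := x1 ▸ one_ne_zero
  obtain ⟨g, hg, e⟩ := H.tr H.nd_top (by rw [finrank_top]; omega) (x := a) (y := x) trivial trivial (a1 ▸ one_ne_zero) (x1.trans a1.symm)
  obtain ⟨n, r⟩ := H.nd_inf H.nd_top trivial x0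
  rw [finrank_top] at r
  obtain ⟨h, hh, e'⟩ := H.tr n (by omega) (x := g.1 b) (y := y) ⟨trivial, mem_pp1.2 (by rw [← e, orth_polar, ab])⟩
    ⟨trivial, mem_pp1.2 xy⟩ (by simp [orth_Q, b1]) (by simp [orth_Q, b1, y1])
  exact ⟨⟨h * g, mul_mem hh.1 hg.1⟩, by rw [orth_mul_apply, e, ((OmB1 H x0).1 hh).2], e'⟩

theorem on2 (H : NQ Q) {B : Submodule F V} (n : Nd Q B) (d : 3 ≤ finrank F B) :
    ∃ a ∈ B, ∃ b ∈ B, Q a = 1 ∧ Q b = 1 ∧ polar Q a b = 0 := by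
  obtain ⟨a, ha, a1⟩ := H.exq n (by omega) one_ne_zero
  obtain ⟨n1, r⟩ := H.nd_inf n ha (a1 ▸ one_ne_zero)
  obtain ⟨b, hb, b1⟩ := H.exq n1 (by omega) one_ne_zero
  exact ⟨a, ha, b, hb.1, a1, b1, mem_pp1.1 hb.2⟩

theorem cj_rk (g h : orth Q) : finrank F (Ps (g * h * g⁻¹)) = finrank F (Ps h) := by
  rw [show Ps (g * h * g⁻¹) = (Ps h).map (g.1 : V →ₗ[F] V) from Submodule.ext fun x => by
    rw [Submodule.mem_map_equiv, mem_Ps, mem_Ps, ← g.1.injective.eq_iff (a := h.1 _), LinearEquiv.apply_symm_apply]; rfl,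
    LinearEquiv.finrank_map_eq]

theorem sm_Ng (S : Sm R Q) (H' : NQ R) (g : orth Q) : finrank F (Ng (S.ext g)) = finrank F (Ng g) := by
  rw [show Ng (S.ext g) = (Ng g).map S.inc from le_antisymm (fun x a => ?_) (by
    rintro _ ⟨w, a, rfl⟩; rw [mem_Ng, S.ext_inc, mem_Ng.1 a, map_neg])]
  · exact (Submodule.equivMapOfInjective _ S.inc_inj _).finrank_eq.symm
  have b : g.1 (S.res x) = -S.res x := by rw [← S.res_ext, mem_Ng.1 a, map_neg]
  have := mem_Ng.1 a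
  rw [S.ext_apply, b, map_sub, map_neg] at this
  exact ⟨_, mem_Ng.2 b, (sub_eq_zero.1 (H'.half (by linear_combination (norm := module) this))).symm⟩

theorem gen5 (H : NQ Q) (H' : NQ R) (d : 6 ≤ finrank F V) (d' : 7 ≤ finrank F V') (S : Sm R Q) {P : Subgroup (orth R)}
    (a : ∀ x y, Q x = 1 → Q y = 1 → polar Q x y = 0 → ∀ g ∈ Om R, g.1 (S.inc x) = S.inc x → g.1 (S.inc y) = S.inc y → g ∈ P) :
    Om R ≤ P := by
  obtain ⟨x0, -, q0⟩ := H.exq H.nd_top (by rw [finrank_top]; omega) one_ne_zero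
  obtain ⟨n0, r0⟩ := H.nd_inf H.nd_top trivial (q0 ▸ one_ne_zero)
  rw [finrank_top] at r0
  obtain ⟨x1, h1, q1⟩ := H.exq n0 (by omega) one_ne_zero
  obtain ⟨n1, r1⟩ := H.nd_inf n0 h1 (q1 ▸ one_ne_zero)
  obtain ⟨x2, h2, q2⟩ := H.exq n1 (by omega) one_ne_zero
  obtain ⟨n2, r2⟩ := H.nd_inf n1 h2 (q2 ▸ one_ne_zero)
  obtain ⟨x3, h3, x4, h4, q3, q4, p34⟩ := on2 H n2 (by omega)
  simp only [Submodule.mem_inf, mem_pp1, Submodule.mem_top, true_and, and_assoc] at h1 h2 h3 h4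
  have i0 : R (S.inc x0) ≠ 0 := by simp [S.qi, q0]
  have k : ∀ {x y z u w}, Q x = 1 → Q y = 1 → Q z = 1 → Q u = 1 → Q w = 1 → polar Q x y = 0 → polar Q x z = 0 → polar Q y z = 0 →
      polar Q x u = 0 → polar Q y u = 0 → polar Q z u = 0 → polar Q x w = 0 → polar Q y w = 0 → polar Q z w = 0 →
      polar Q u w = 0 → ∃ g ∈ Om R, g ∈ P ∧ g.1 (S.inc u) = S.inc u ∧ polar R (S.inc x) (g.1 (S.inc x)) = 0 := by
    intro x y z u w _ _ _ _ _ _ _ _ _ _ _ _ _ _ _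
    have f : Fr R (S.inc x) (S.inc y) (S.inc z) := by constructor <;> simp [S.qi, S.pol2, *]
    have m := (H'.cyc_mem (B := ⊤) f trivial trivial trivial).1
    have e : ∀ u, polar Q x u = 0 → polar Q y u = 0 → polar Q z u = 0 → (cyc R (S.inc x) (S.inc y) (S.inc z)).1 (S.inc u) = S.inc u :=
      fun u a b c => cyc_fix (by rwa [S.pol2]) (by rwa [S.pol2]) (by rwa [S.pol2])
    exact ⟨_, m, a u w ‹_› ‹_› ‹_› _ m (e u ‹_› ‹_› ‹_›) (e w ‹_› ‹_› ‹_›), e u ‹_› ‹_› ‹_›, by rw [(H'.cyc_app f).1, f.p01]⟩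
  obtain ⟨n, r⟩ := H'.nd_inf H'.nd_top trivial i0
  rw [finrank_top] at r
  obtain ⟨g, b1, b2, b3, b4⟩ := k q1 q2 q3 q0 q4 h2.2 h3.2.1 h3.2.2 (polar_comm Q _ _ ▸ h1) (polar_comm Q _ _ ▸ h2.1)
    (polar_comm Q _ _ ▸ h3.1) h4.2.1 h4.2.2 p34 h4.1
  obtain ⟨g', c1, c2, -, c4⟩ := k q0 q1 q2 q3 q4 h1 h2.1 h2.2 h3.1 h3.2.1 h3.2.2 h4.1 h4.2.1 h4.2.2 p34
  exact H'.OmB_top.ge.trans (gen2 H' H'.nd_top (by rw [finrank_top]; omega) trivial i0 (.id _) (map_id _)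
    (fun δ e1 e2 => gen2 H' n (by omega) (y := S.inc x1) ⟨trivial, mem_pp1.2 (by rwa [S.pol2])⟩ (by simp [S.qi, q1]) (.id _) (map_id _)
      (fun δ e1 e2 => a x0 x1 q0 q1 h1 δ e1.1 ((OmB1 H' i0).1 e1).2 e2) ((OmB1 H' i0).2 ⟨b1, b3⟩) b2 b4
      ((OmB1 H' i0).2 ⟨e1.1, e2⟩)) (H'.OmB_top.ge c1) c2 c4)

/-- `-1` on the extra plane -/
noncomputable def Bj (B : Big R Q) : orth R := refl R B.f0 * refl R B.f1

namespace Bg
variable (H : NQ Q) (B : Big R Q)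
include H
include B in
theorem nq : NQ R := ⟨H.two, B.nd⟩
omit H in
theorem f0 : R B.f0 ≠ 0 := B.q0 ▸ one_ne_zero
omit H in
theorem f1 : R B.f1 ≠ 0 := B.q1 ▸ one_ne_zero
omit H in
theorem jj : Bj B * Bj B = 1 := rr_sq B.p01
theorem jm : Bj B ∈ Om R := (nq H B).rr_mem (f0 B) (B.q1.trans B.q0.symm)
omit H in
theorem ji (w : V) : (Bj B).1 (B.inc w) = B.inc w :=
  rr_o (by rw [polar_comm, B.pol, B.r0, polar_zero_right]) (by rw [polar_comm, B.pol, B.r1, polar_zero_right])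
theorem jn (x : V') : x ∈ Ng (Bj B) ↔ B.res x = 0 := ⟨fun a => H.nd _ fun w => by
    rw [CForm.ofQuad_B, polar_comm, ← B.pol, polar_comm]; exact (nq H B).perp_of (ji B w) (mem_Ng.1 a), fun a => by
  obtain ⟨s, t, rfl⟩ := B.dec x a
  rw [mem_Ng, map_add, map_smul, map_smul, Bj, rr_l (f0 B) B.p01, rr_r (f1 B) B.p01]; module⟩
theorem jp (x : V') (a : x ∈ Ps (Bj B)) : B.inc (B.res x) = x := sub_eq_zero.1 ((nq H B).half (by
  rw [← mem_Ng.1 ((jn H B _).2 (by simp [B.ri])), map_sub, ji, mem_Ps.1 a]))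
theorem jt : Jt (Bj B) := ⟨jm H B, jj B, by
  have H' := nq H B
  have := (H'.nd_inf (H'.nd_Ng (jj B)) ((jn H B _).2 B.r0) (f0 B)).2
  rw [show Ng (Bj B) ⊓ pp R (F ∙ B.f0) = F ∙ B.f1 from le_antisymm (fun x a => ?_) (by
    simpa [mem_pp1, B.p01] using (jn H B _).2 B.r1), H'.rk_one (f1 B)] at this
  · omega
  obtain ⟨s, t, rfl⟩ := B.dec x ((jn H B _).1 a.1)
  have := mem_pp1.1 a.2
  simp only [polar_add_right, polar_smul_right, B.p01, polar_self', B.q0, smul_eq_mul, mul_zero, add_zero, mul_one,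
    mul_eq_zero, H.two, or_false] at this
  simpa [this] using Submodule.smul_mem _ t (Submodule.mem_span_singleton_self _)⟩
theorem ex (m : orth Q) : B.ext m ∈ Fx R (pp R (Ps (Bj B))) := fun x a =>
  B.ext_fix m ((jn H B x).1 (((nq H B).pp_Ps (jj B)).le a))
theorem nj : ng R * Bj B ∈ Fx R (pp R (Ps (Bj B))) := fun x a => by
  rw [ng_mul, mem_Ng.1 (((nq H B).pp_Ps (jj B)).le a), neg_neg]
theorem en : B.ext (ng Q) = ng R * Bj B := (nq H B).ext ((nq H B).nd_Ps (jj B)) (fun x a => by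
  rw [← jp H B x a, B.ext_inc, ng_mul, ji, H12.negOne_apply, map_neg]) fun x a => by rw [ex H B _ x a, nj H B x a]
include B in
theorem rk : finrank F V' = finrank F V + 2 := by
  rw [← (nq H B).irk (jj B), (jt H B).dim, add_comm, show Ps (Bj B) = LinearMap.range B.inc from
    le_antisymm (fun x a => ⟨_, jp H B x a⟩) (by rintro _ ⟨w, rfl⟩; exact mem_Ps.2 (ji B w)),
    LinearMap.finrank_range_of_inj B.inc_inj]
theorem fix {g : orth R} (a : g.1 B.f0 = B.f0) (b : g.1 B.f1 = B.f1) : ∃ m, B.ext m = g :=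
  sm_ex B.toSm H (nq H B) fun x e => by obtain ⟨s, t, rfl⟩ := B.dec x e; simp [a, b]
theorem cm {g : orth R} (a : B.res (g.1 B.f0) = 0) (b : B.res (g.1 B.f1) = 0) : g * Bj B = Bj B * g :=
  (nq H B).cm_of_map (jj B) fun x e => (jn H B _).2 (by obtain ⟨s, t, rfl⟩ := B.dec x ((jn H B _).1 e); simp [a, b])
theorem res {g : orth R} (a : g * Bj B = Bj B * g) : ∃ α : orth Q, (∀ w, B.inc (α.1 w) = g.1 (B.inc w)) ∧
    ∀ m, g * B.ext m * g⁻¹ = B.ext (α * m * α⁻¹) := by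
  obtain ⟨α, e⟩ := B.toSm.ext_surj H.nd (g := g) fun w => ⟨_, (jp H B _ (map_Ps a _ (mem_Ps.2 (ji B w)))).symm⟩
  refine ⟨α, e, fun m => ?_⟩
  have := (nq H B).fx_cm ((nq H B).nd_Ps (jj B)) (ex H B m) (h := (B.ext α)⁻¹ * g) fun x c => by
    rw [← jp H B x c, orth_mul_apply, ← e, ← B.ext_inc, orth_inv_apply']
  rw [map_mul, map_mul, map_inv, ← mul_inv_cancel_left (B.ext α) g, mul_assoc (B.ext α), ← this]; group
theorem cjt (d : 2 ≤ finrank F V) {g : orth R} (J : Jt g) : ∃ x : Om R, x.1 * g * x.1⁻¹ = Bj B := by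
  obtain ⟨a, b, a1, b1, ab, rfl⟩ := jt_rr (nq H B) J
  obtain ⟨x, e1, e2⟩ := move (nq H B) (by rw [rk H B]; omega) a1 b1 ab B.q0 B.q1 B.p01
  exact ⟨x, by rw [rr_cj, e1, e2, Bj]⟩
end Bg

end H29.WO
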