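/-
S3325 (Wong): chunk P2.
-/
import Cfsg.Agent.H29.WO4
import Cfsg.Agent.H20.WO4
import Cfsg.Agent.H9.WO4

set_option autoImplicit false
set_option linter.unusedSectionVars false
set_option linter.unusedVariables false

namespace H29.WO
open Cfsg Subgroup H19 H12 H11 QuadraticMap Module H20.WO
open H22 (Om)
universe u v

theorem cfix {G : Type*} [Group G] {a g t : G} (h : g * t * g⁻¹ = a * t * a⁻¹) : a⁻¹ * g ∈ C[t] :=
  mem_cent1.2 (mul_inv_eq_iff_eq_mul.1 (by rw [mul_inv_rev, mul_assoc a⁻¹, mul_assoc a⁻¹, ← mul_assoc (g * t), h]; group))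

section
variable {F : Type u} [Field F] [Finite F] {V V' : Type u} [AddCommGroup V] [Module F V] [FiniteDimensional F V]
  [AddCommGroup V'] [Module F V'] [FiniteDimensional F V'] {Q : QuadraticForm F V} {R : QuadraticForm F V'}
  {G : Type v} [Group G] [Finite G] {B : Big R Q} {D : Dat Q G} (d : Dim Q) (Z : Gz D B)
include d Z

theorem z_ker {g : Om R} (e : Z.Ψ g = 1) : g.1 = 1 ∨ g.1 = ng R :=
  (Bg.nq d.nq B).cen_pm (by have := Bg.rk d.nq B; have := d.eight; omega) fun m hm =>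
    congrArg Subtype.val (mem_center_iff.1 (Z.ker e) ⟨m, hm⟩).symm
theorem z_M : D.p.range ≤ Z.Ψ.range := by rintro _ ⟨m, rfl⟩; exact ⟨_, Z.ext m ((Bg.nq d.nq B).exO d.nq B.toSm m) rfl⟩
theorem z_j {z : Om Q} (a : z.1 = ng Q) {m : Om R} (b : m.1 = ng R * Bj B) : Z.Ψ m = D.p z :=
  Z.ext z m (by rw [a, b, Bg.en d.nq])
theorem z_cm {a b : Om R} (e : a.1 * b.1 = b.1 * a.1) : Z.Ψ a ∈ C[Z.Ψ b] := mem_cent1.2 (by
  rw [← map_mul, ← map_mul]; exact congrArg _ (Subtype.ext e))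

theorem z_t : D.t = D.t0 ∨ ∃ z : Om Q, z.1 = ng Q ∧ D.t = D.p z := by
  have H := d.nq
  have H' := Bg.nq H B
  have tc : D.t ∈ C(D.p.range) := by rintro _ ⟨m, rfl⟩; exact mem_cent1.1 (D.cen _ (D.gp m))
  have c0 := c_of D ((D.ker _).2 D.t0c) (.inl rfl)
  obtain ⟨m, e | e⟩ := t_cases d D
  · exact .inr ⟨m, (pm_of d D (D.gp m) (e ▸ tc)).resolve_left fun k => D.t1 (by rw [e, show m = 1 from Subtype.ext k, map_one]), e⟩
  rcases pm_of d D (D.gp m) ((mul_mem_cancel_right c0).1 (e ▸ tc)) with k | k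
  · exact .inl (by rw [e, show m = 1 from Subtype.ext k, map_one, one_mul])
  exfalso
  let z := H'.exO H B.toSm m * ⟨_, Bg.jm H B⟩
  have z1 : z.1 = ng R := by
    rw [coe_mul, H'.exO_val, show m.1 = _ from k, Bg.en H, mul_assoc, Bg.jj, mul_one]
  have z2 : Z.Ψ z = D.t := by rw [map_mul, Z.ext m _ rfl, Z.t0 _ rfl, e]
  have : (D.p.range.comap Z.Ψ).Normal := ⟨fun x a g => by
    rw [mem_comap, map_mul, map_mul, map_inv]
    exact conj_mem_of_norm (D.nor _ (z2 ▸ z_cm d Z (by rw [z1, ng_cm]))) a⟩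
  rcases H'.qs (by have := Bg.rk H B; have := d.eight; omega) (D.p.range.comap Z.Ψ) with r | r
  · obtain ⟨m', r⟩ := r.ge (mem_top ⟨_, Bg.jm H B⟩)
    rw [Z.t0 _ rfl] at r
    rcases pm_of d D (D.gp m') (r ▸ c0) with s | s
    · exact D.t01 (by rw [← r, show m' = 1 from Subtype.ext s, map_one])
    · exact D.t1 (by rw [e, ← Subtype.ext (s.trans k.symm), r, D.t00])
  · have r := r (x := H'.exO H B.toSm m) ⟨m, (Z.ext m _ rfl).symm⟩
    rcases H'.cen_pm (g := B.ext m) (by have := Bg.rk H B; have := d.eight; omega) fun g hg =>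
      congrArg Subtype.val (mem_center_iff.1 r ⟨g, hg⟩).symm with s | s
    · obtain ⟨x, -, a⟩ := H.exq H.nd_top (by rw [finrank_top]; have := d.eight; omega) one_ne_zero
      have := DFunLike.congr_fun (congrArg Subtype.val (k.symm.trans (B.ext_inj (s.trans (map_one _).symm)))) x
      rw [H.half (x := x) this.symm, map_zero] at a
      exact zero_ne_one a
    · have := B.ext_fix m.1 B.r0
      rw [s] at this
      exact Bg.f0 B (by rw [H'.half this.symm, map_zero])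

theorem z_w : ∃ w : Om R, (w.1 = Bj B ∨ w.1 = ng R * Bj B) ∧ Z.Ψ w = D.t := by
  rcases z_t d Z with e | ⟨z, a, e⟩
  · exact ⟨⟨_, Bg.jm d.nq B⟩, .inl rfl, (Z.t0 _ rfl).trans e.symm⟩
  · exact ⟨(Bg.nq d.nq B).exO d.nq B.toSm z, .inr (by rw [NQ.exO_val, a, Bg.en d.nq]), (Z.ext z _ rfl).trans e.symm⟩
theorem z_H {g : Om R} (a : g.1 * Bj B = Bj B * g.1) : Z.Ψ g ∈ C[D.t] := by
  obtain ⟨w, b | b, e⟩ := z_w d Z <;> refine e ▸ z_cm d Z ?_ <;> rw [b]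
  exacts [a, by rw [← mul_assoc, ← ng_cm, mul_assoc, a, mul_assoc]]

theorem z_fus (f : D.Fus) (η : Om R) (a : D.X (Z.Ψ η)) : ∃ x : Om R, Z.Ψ η = Z.Ψ x * D.t * (Z.Ψ x)⁻¹ := by
  have H := d.nq
  have H' := Bg.nq H B
  have r := Bg.rk H B
  have := d.eight
  have red : ∀ η x : Om R, D.X (Z.Ψ η) → (D.X (Z.Ψ (x * η * x⁻¹)) → ∃ y : Om R, Z.Ψ (x * η * x⁻¹) = Z.Ψ y * D.t * (Z.Ψ y)⁻¹) →
      ∃ x : Om R, Z.Ψ η = Z.Ψ x * D.t * (Z.Ψ x)⁻¹ := fun η x ⟨e, a⟩ b => by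
    obtain ⟨y, b⟩ := b ⟨e.trans (MulAut.conj (Z.Ψ x)), by simp [a]⟩
    exact ⟨x⁻¹ * y, by rw [map_mul, map_inv, mul_inv_rev, inv_inv, mul_assoc, mul_assoc, ← mul_assoc D.t, ← mul_assoc (Z.Ψ y),
      ← mul_assoc (Z.Ψ y), ← b]; simp [mul_assoc]⟩
  have o : ∀ {y}, y = D.t → ∃ x : Om R, y = Z.Ψ x * D.t * (Z.Ψ x)⁻¹ := fun e => ⟨1, by simp [e]⟩
  have f2 : ∀ η : Om R, D.X (Z.Ψ η) → Jt η.1 ∨ Jt (ng R * η.1) → ∃ x : Om R, Z.Ψ η = Z.Ψ x * D.t * (Z.Ψ x)⁻¹ := by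
    rintro η a (J | J) <;> obtain ⟨x, e⟩ := Bg.cjt H B (by omega) J <;> refine red η x a fun a => o ?_
    · exact f.k 1 _ a (.inl rfl) (.inr (by rw [map_one, one_mul]; exact Z.t0 _ e))
    · have e : (x * η * x⁻¹).1 = ng R * Bj B := by
        rw [← e, ← mul_assoc x.1, ← ng_cm, ← mul_assoc, ← mul_assoc, ← mul_assoc, ng_sq, one_mul]; rfl
      exact f.k ⟨ng Q, (H'.ext_mem H B.toSm _).1 (by rw [Bg.en H, ← e]; exact (x * η * x⁻¹).2)⟩ _ a (.inr rfl) (.inl (z_j d Z rfl e))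
  have ej : ∀ β, Jt β → Jt (B.ext β) := fun β J =>
    ⟨(H'.ext_mem H B.toSm _).2 J.mem, by rw [← map_mul, J.sq, map_one], (sm_Ng B.toSm H' β).trans J.dim⟩
  have nj : ∀ β, β * β = 1 → 5 ≤ finrank F (Ps (B.ext β)) → ¬ Jt (ng Q * β) := fun β a b J => by
    have := J.dim
    have := H'.irk (g := B.ext β) (by rw [← map_mul, a, map_one])
    have := H.irk a
    rw [Ng_ng, sm_Ng B.toSm H'] at *
    omega
  have yy : Z.Ψ (η * η) = 1 := by obtain ⟨e, a⟩ := a; rw [map_mul, ← a, ← map_mul, D.tt, map_one]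
  rcases z_ker d Z yy with k | k
  · have k : η.1 * η.1 = 1 := k
    have cs : ∀ κ : orth R, κ * κ = 1 → 5 ≤ finrank F (Ps κ) → ∃ (x : Om R) (β : orth Q), β * β = 1 ∧
        x.1 * κ * x.1⁻¹ = B.ext β ∧ ¬ Jt (ng Q * β) := fun κ k c => by
      obtain ⟨a, ha, b, hb, a1, b1, ab⟩ := on2 H' (H'.nd_Ps k) (by omega)
      obtain ⟨x, e1, e2⟩ := move H' (by omega) a1 b1 ab B.q0 B.q1 B.p01
      obtain ⟨β, e⟩ := Bg.fix H B (g := x.1 * κ * x.1⁻¹) (by rw [orth_mul_apply, inv_of e1, orth_mul_apply, mem_Ps.1 ha, e1])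
        (by rw [orth_mul_apply, inv_of e2, orth_mul_apply, mem_Ps.1 hb, e2])
      have : β * β = 1 := B.ext_inj (by rw [map_mul, e, conj_mul, k]; simp)
      exact ⟨x, β, this, e.symm, nj β this (by rwa [e, cj_rk])⟩
    have := H'.irk k
    rcases le_or_gt 5 (finrank F (Ps η.1)) with c | c
    · obtain ⟨x, β, b2, e, n⟩ := cs _ k c
      refine red η x a fun a => ?_
      have m : β ∈ Om Q := (H'.ext_mem H B.toSm _).1 (e ▸ (x * η * x⁻¹).2)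
      have y := Z.ext ⟨β, m⟩ (x * η * x⁻¹) e
      rcases f.i ⟨β, m⟩ _ a (Subtype.ext b2) (.inl y) with s | s | s | s
      exacts [o (f.k _ _ a (.inl s) (.inl y)), o (f.k _ _ a (.inr s) (.inl y)), f2 _ a (.inl (e ▸ ej β s :)), absurd s n]
    · obtain ⟨x, β, b2, e, n⟩ := cs _ (ng_ng k) (by rw [Ps_ng]; omega)
      refine red η x a fun a => ?_
      have e0 : ng R * (x * η * x⁻¹).1 = B.ext β := by rw [← e, ← mul_assoc x.1, ← ng_cm]; simp [mul_assoc]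
      have e' : (x * η * x⁻¹ * ⟨_, Bg.jm H B⟩).1 = B.ext (ng Q * β) := by
        rw [ng_cm, map_mul, ← e0, Bg.en H, ng_cm, mul_assoc _ (ng R), ← mul_assoc (ng R), ng_sq, one_mul]; rfl
      have m : ng Q * β ∈ Om Q := (H'.ext_mem H B.toSm _).1 (e' ▸ Subtype.property _)
      have y := Z.ext ⟨_, m⟩ _ e'
      rw [map_mul, Z.t0 ⟨_, Bg.jm H B⟩ rfl, ← eq_mul_inv_iff_mul_eq, inv_eq_of_mul_eq_one_right D.t00] at y
      rcases f.i ⟨_, m⟩ _ a (Subtype.ext (ng_ng b2)) (.inr y) with s | s | s | s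
      exacts [o (f.k _ _ a (.inl s) (.inr y)), o (f.k _ _ a (.inr s) (.inr y)), absurd s n,
        f2 _ a (.inr (e0 ▸ ej β (by rwa [← mul_assoc, ng_sq, one_mul] at s)))]
  · have k : η.1 * η.1 = ng R := k
    obtain ⟨w, -, w1⟩ := H'.exq H'.nd_top (by rw [finrank_top]; omega) one_ne_zero
    obtain ⟨x, e1, e2⟩ := move H' (by omega) w1 ((orth_Q η.1 w).trans w1)
      (H'.two_dim H'.nd_top trivial (w1 ▸ one_ne_zero) η.1 k trivial).1 B.q0 B.q1 B.p01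
    refine red η x a fun a => False.elim ?_
    have k' : (x * η * x⁻¹).1 * (x * η * x⁻¹).1 = ng R := by
      simp only [coe_mul, coe_inv, conj_mul, k, ← ng_cm, mul_inv_cancel_right]
    have g0 : (x * η * x⁻¹).1.1 B.f0 = B.f1 := by rw [coe_mul, orth_mul_apply, coe_inv, inv_of e1, coe_mul, orth_mul_apply, e2]
    obtain ⟨α, a1, a2⟩ := Bg.res H B (g := (x * η * x⁻¹).1) (Bg.cm H B (by rw [g0, B.r1]) (by
      rw [← g0, ← orth_mul_apply, k', H12.negOne_apply, map_neg, B.r0, neg_zero]))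
    let z : Om Q := ⟨ng Q, (H'.ext_mem H B.toSm _).1 (by rw [Bg.en H, ← k]; exact mul_mem (η * η).2 (Bg.jm H B))⟩
    have z0 : D.t0 = D.p z := by
      rw [← z_j d Z (z := z) rfl (m := η * η * ⟨_, Bg.jm H B⟩) (by rw [← k]; rfl), map_mul, yy, one_mul, Z.t0 _ rfl]
    refine f.c z _ α a rfl ((z_t d Z).elim (·.trans z0) fun ⟨z', b, c⟩ => by rw [c, show z' = z from Subtype.ext b]) z0
      (orth_ext fun w => B.inc_inj (by rw [orth_mul_apply, a1, a1, ← orth_mul_apply, k', H12.negOne_apply, H12.negOne_apply, map_neg]))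
      fun m m' e => ?_
    rw [← Z.ext m (H'.exO H B.toSm m) rfl, ← map_inv, ← map_mul, ← map_mul]
    exact Z.ext _ _ (by rw [e, ← a2]; rfl)

theorem z_H0 : D.Γ.map (.snd _ _) ≤ Z.Ψ.range := by
  rintro _ ⟨⟨α, h⟩, a, rfl⟩
  have H := d.nq
  have H' := Bg.nq H B
  obtain ⟨s, b, c⟩ := H'.adj (H'.nd_Ng (Bg.jj B)) (Bg.jt H B).dim.ge (B.ext α)
  rw [H'.pp_Ng (Bg.jj B)] at b
  have n := H'.nd_Ps (Bg.jj B)
  have c1 := pm_cm H' n (.inr (Bg.nj H B)) (.inl b)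
  have c2 := pm_cm H' (H'.nd_pp n) (g := Bj B) (.inl (by rw [H'.pp_pp]; exact fun x a => mem_Ps.1 a)) (.inl (Bg.ex H B α))
  have k := kl o2 d D B Z (x := (Z.Ψ ⟨_, c⟩)⁻¹ * h) (mem_inf.2 ⟨mul_mem (inv_mem (z_H d Z (by
    rw [mul_assoc, ← c1, ← mul_assoc, ← c2, mul_assoc]))) (D.cen _ a), ?_⟩)
  · exact (mul_mem_cancel_left (inv_mem (MonoidHom.mem_range.2 ⟨_, rfl⟩))).1 k
  rintro _ ⟨m, rfl⟩
  have e := D.act _ a m ⟨_, Normal.conj_mem inferInstance _ m.2 α⟩ rfl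
  rw [← Z.ext ⟨_, Normal.conj_mem inferInstance _ m.2 α⟩ (⟨_, c⟩ * H'.exO H B.toSm m * ⟨_, c⟩⁻¹) (by
    simp only [coe_mul, coe_inv, H'.exO_val, map_mul, map_inv, mul_assoc (B.ext α), ← H'.fx_cm n (Bg.ex H B m) b]; group),
    map_mul, map_mul, map_inv, Z.ext m (H'.exO H B.toSm m) rfl] at e
  rw [mul_assoc, mul_inv_eq_iff_eq_mul.1 e]; group

theorem z_HN (f : D.Fus) : C[D.t] ≤ N(Z.Ψ.range) := fun h hh => mem_norm_of_cj_le (by
  have H := d.nq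
  have H' := Bg.nq H B
  have r := Bg.rk H B
  have := d.eight
  rintro _ ⟨_, ⟨m, rfl⟩, rfl⟩
  obtain ⟨m', k, e⟩ := gen5 H H' (by omega) (by omega) B.toSm
    (P := (Z.Ψ.range.comap ((MulAut.conj h).toMonoidHom.comp Z.Ψ)).map (Om R).subtype) (fun a b a1 b1 ab g hg ga gb => by
      refine ⟨⟨g, hg⟩, mem_comap.2 ?_, rfl⟩
      obtain ⟨x, e1, e2⟩ := move H' (by omega) B.q0 B.q1 B.p01 ((B.qi a).trans a1) ((B.qi b).trans b1) ((B.pol2 ..).trans ab)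
      obtain ⟨w, w1, w2⟩ := z_w d Z
      let j : Om Q := ⟨_, H.rr_mem (a1 ▸ one_ne_zero) (b1.trans a1.symm)⟩
      have j1 : x.1 * Bj B * x.1⁻¹ = B.ext j := by rw [Bj, rr_cj, e1, e2, map_mul, B.ext_refl, B.ext_refl]
      have hM : ∀ m, h * D.p m * h⁻¹ ∈ Z.Ψ.range := fun m => z_M d Z (conj_mem_of_norm (D.nor h hh) ⟨m, rfl⟩)
      obtain ⟨η, e⟩ : h * Z.Ψ (x * w * x⁻¹) * h⁻¹ ∈ Z.Ψ.range := by
        rcases w1 with w1 | w1
        · exact Z.ext j (x * w * x⁻¹) (by rw [← j1, ← w1]; rfl) ▸ hM j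
        let z := x * w * x⁻¹ * (H'.exO H B.toSm j)⁻¹
        have z1 : z.1 = ng R := by
          simp only [z, coe_mul, coe_inv, H'.exO_val, w1, ← j1, ← mul_assoc x.1, ← ng_cm]; group
        rw [← inv_mul_cancel_right (x * w * x⁻¹) (H'.exO H B.toSm j), map_mul, ← conj_mul, Z.ext j (H'.exO H B.toSm j) rfl]
        refine mul_mem (kl o2 d D B Z (conj_mem_of_norm (inf_normalizer_le_normalizer_inf ⟨le_normalizer hh,
          norm_le_norm_cent _ (D.nor h hh)⟩) (mem_inf.2 ⟨z_H d Z (g := z) (by rw [z1, ng_cm]), fun y hy => ?_⟩))) (hM j)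
        obtain ⟨y, rfl⟩ := z_M d Z hy
        exact mem_cent1.1 (z_cm d Z (b := z) (by rw [z1, ng_cm]))
      rw [map_mul, map_mul, map_inv, w2, show h * (Z.Ψ x * D.t * (Z.Ψ x)⁻¹) * h⁻¹ = h * Z.Ψ x * D.t * (h * Z.Ψ x)⁻¹ by group] at e
      obtain ⟨y, e'⟩ := z_fus d Z f η ⟨MulAut.conj (h * Z.Ψ x), e.symm⟩
      have k : (Z.Ψ y)⁻¹ * (h * Z.Ψ x) ∈ C[D.t] := cfix (e.symm.trans e')
      obtain ⟨m, e3⟩ := Bg.fix H B (g := x.1⁻¹ * g * x.1) (by rw [orth_mul_apply, orth_mul_apply, e1, ga, inv_of e1])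
        (by rw [orth_mul_apply, orth_mul_apply, e2, gb, inv_of e2])
      have hm : m ∈ Om Q := (H'.ext_mem H B.toSm _).1 (e3 ▸ (x⁻¹ * ⟨g, hg⟩ * x).2)
      have := mul_mem (mul_mem (MonoidHom.mem_range.2 ⟨y, rfl⟩) (z_M d Z (conj_mem_of_norm (D.nor _ k) ⟨⟨m, hm⟩, rfl⟩)))
        (inv_mem (MonoidHom.mem_range.2 ⟨y, rfl⟩))
      rw [← Z.ext ⟨m, hm⟩ (x⁻¹ * ⟨g, hg⟩ * x) e3.symm] at this
      simpa [mul_assoc] using this) m.2
  exact (Subtype.ext e : m' = m) ▸ k)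

theorem z_odd (f : D.Fus) : Odd (Z.Ψ.range.relIndex N(Z.Ψ.range)) := by
  obtain ⟨w, -, e⟩ := z_w d Z
  rw [show N(Z.Ψ.range) = Z.Ψ.range ⊔ C[D.t] from le_antisymm (fun g a => ?_) (sup_le le_normalizer (z_HN d Z f)),
    relIndex_sup_of_norm (z_HN d Z f)]
  · exact D.odd.of_dvd_nat (relIndex_dvd_of_le_left _ (z_H0 d Z))
  obtain ⟨η, b⟩ := conj_mem_of_norm a ⟨w, e⟩
  obtain ⟨x, c⟩ := z_fus d Z f η ⟨MulAut.conj g, b.symm⟩
  rw [← mul_inv_cancel_left (Z.Ψ x) g]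
  exact mul_mem_sup ⟨x, rfl⟩ (cfix (b.symm.trans c))

theorem z_two (f : D.Fus) : ∀ y ∈ N(Z.Ψ.range), ∀ k, y ^ 2 ^ k = 1 → y ∈ Z.Ψ.range := fun y a k b =>
  zpowers_le.1 (le_of_pi_of_relIndex (π := {2}) (zpowers_le.2 a) le_normalizer (zpowers_le.2 a)
    (piG_zpowers.2 ((PiN.prime_pow Nat.prime_two k).dvd (orderOf_dvd_of_pow_eq_one b))) (.of_not_dvd (z_odd d Z f).not_two_dvd_nat))

theorem z_uf (f : D.Fus) {σ : Om R} {x : Om R} (e : Z.Ψ (x * σ * x⁻¹) = D.t) (g : G) (a : g * Z.Ψ σ * g⁻¹ ∈ N(Z.Ψ.range)) :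
    g ∈ N(Z.Ψ.range) := by
  have e' : g * Z.Ψ σ * g⁻¹ = g * (Z.Ψ x)⁻¹ * D.t * (g * (Z.Ψ x)⁻¹)⁻¹ := by simp [← e, mul_assoc]
  obtain ⟨η, b⟩ := z_two d Z f _ a 1 (by rw [e', conj_pow, pow_one, pow_two, D.tt]; simp)
  obtain ⟨y, c⟩ := z_fus d Z f η ⟨MulAut.conj (g * (Z.Ψ x)⁻¹), (b.trans e').symm⟩
  have k : ∀ x, (Z.Ψ x)⁻¹ ∈ N(Z.Ψ.range) := fun x => inv_mem (le_normalizer ⟨x, rfl⟩)
  exact (mul_mem_cancel_right (k x)).1 ((mul_mem_cancel_left (k y)).1 (z_HN d Z f (cfix ((b.trans e').symm.trans c))))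

theorem z_cc (aut : AUT.{u, v}) (fw : FW.{u, v}) (f : D.Fus) (e : D.t = D.t0) : Cc R G := by
  have H := d.nq
  have r := Bg.rk H B
  have := d.eight
  have n := H9.WO.nrmz aut H.two B.nd (by omega) Z.Ψ Z.ker (fun σ J g a => by
    obtain ⟨x, b⟩ := Bg.cjt H B (by omega) J
    exact z_uf d Z f (e ▸ Z.t0 _ b) g a) (z_two d Z f)
  obtain ⟨w, -, e⟩ := z_w d Z
  have c : C(Z.Ψ.range) ≤ Z.Ψ.range := (le_inf (fun g a => mem_cent1.2 (a _ ⟨w, e⟩).symm) (cent_mono (z_M d Z))).trans (kl o2 d D B Z)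
  obtain ⟨W, a1, a2, a3, a4⟩ := fw H.two B.nd (by omega) Z.Ψ Z.ker n c (by
    simpa only [normalizer_eq_top, relIndex_top_right] using z_odd d Z f)
  exact ⟨Z.Ψ, Z.ker, n, W, a1, a2, a3, a4, eq_bot_iff.2 ((inf_le_inf_left W c).trans a3.le)⟩

end

theorem p2 (aut : AUT.{u, v}) (fw : FW.{u, v}) : P2.{u, v} := by
  intro F _ _ V _ _ _ Q G _ _ V' _ _ _ R B d f D ⟨Z⟩
  rcases z_t d Z with e | ⟨z, a, e⟩
  · exact z_cc d Z aut fw (f D) e
  have H := d.nq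
  have H' := Bg.nq H B
  have r := Bg.rk H B
  have := d.eight
  let j : Om R := ⟨_, Bg.jm H B⟩
  let y := H'.exO H B.toSm z * j
  have y1 : y.1 = ng R := by rw [coe_mul, H'.exO_val, a, Bg.en H, mul_assoc, Bg.jj, mul_one]
  have yc : ∀ m, y * m = m * y := fun m => Subtype.ext (show y.1 * m.1 = m.1 * y.1 by rw [y1, ng_cm])
  have y2 : Z.Ψ y = D.t * D.t0 := by rw [map_mul, Z.ext z _ rfl, Z.t0 _ rfl, e]
  have c1 := H9.WO.cc H.two B.nd (by omega) Z.Ψ y Z.ker y1 (fun σ J g b => by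
    obtain ⟨x, c⟩ := Bg.cjt H B (by omega) J
    exact z_uf d Z (f D) (x := x) (e ▸ z_j d Z a (by
      rw [← yc, coe_mul, coe_mul, coe_mul, y1, ← mul_assoc, ← ng_cm, ← c]; simp [mul_assoc])) g b) j (Bg.jt H B)
  have c2 : N(Z.Ψ.range) ≤ C[Z.Ψ y] := fun g hg => by
    obtain ⟨m, e⟩ := conj_mem_of_norm hg ⟨y, rfl⟩
    rcases H9.WO.grun ⟨H.two, B.nd⟩ (by omega) Z.ker (m := m) (e ▸ conj_mem_of_norm (norm_le_norm_cent _ hg) (by
      rintro _ ⟨x, rfl⟩; rw [← map_mul, ← yc, map_mul])) with r | r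
    · rw [show m = 1 from Subtype.ext r, map_one, eq_comm, conj_eq_one_iff] at e
      simp [e]
    · rw [mem_cent1, ← mul_inv_eq_iff_eq_mul, ← e, show m = y from Subtype.ext (r.trans y1.symm)]
  rw [Z.t0 j rfl, y2] at c1
  rw [y2] at c2
  have c : C[D.t0] = C[D.t] := le_antisymm (fun g a => mem_cent1.2 (mul_right_cancel (b := D.t0) (by
      rw [mul_assoc, mem_cent1.1 (c1 a), mul_assoc, mul_assoc, mem_cent1.1 a]))) fun g a => mem_cent1.2 (mul_left_cancel (a := D.t) (by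
    rw [← mul_assoc, ← mem_cent1.1 a, mul_assoc, mem_cent1.1 (c2 (z_HN d Z (f D) a)), mul_assoc]))
  let D' : Dat Q G := { D with t := D.t0, tt := D.t00, t1 := D.t01, nor := c ▸ D.nor, cen := c ▸ D.cen, odd := c ▸ D.odd, h5 := c ▸ D.h5 }
  exact z_cc (D := D') d ⟨Z.Ψ, Z.ker, Z.ext, Z.t0, Z.cc⟩ aut fw (f D') rfl

end H29.WO
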